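import Mathlib
import Cfsg.Agent.Lib.Coprime.Generation

/-! Two pure group-theoretic lemmas for the maximality of `3^(1+4).Sp₄(3)`. -/

set_option autoImplicit false

namespace CfsgLib.C9

open Subgroup

variable {G : Type*} [Group G] [Finite G]

/-- If `s` fixes a unique coset of `N` then every `2`-subgroup containing `s` lies in `N`. -/
theorem two_le {N P : Subgroup G} {s : G} (h1 : ∀ g, g * s * g⁻¹ ∈ N → g ∈ N) (hs : s ∈ N)
    (hP : IsPGroup 2 P) (hsP : s ∈ P) : P ≤ N := by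
  have : Group.IsNilpotent P := hP.isNilpotent
  by_contra hn
  have hlt : N.subgroupOf P < ⊤ := lt_top_iff_ne_top.2 fun h => hn (subgroupOf_eq_top.1 h)
  obtain ⟨y, hy, hyN⟩ :=
    SetLike.exists_of_lt (Group.normalizerCondition_of_isNilpotent (G := P) _ hlt)
  exact hyN (h1 y ((mem_normalizer_iff.1 hy ⟨s, hsP⟩).1 hs))

omit [Finite G] in
theorem isPGroup_zpowers_two {x : G} (h : x * x = 1) : IsPGroup 2 (zpowers x) := by
  rintro ⟨_, k, rfl⟩
  refine ⟨1, Subtype.ext ?_⟩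
  change (x ^ k) ^ 2 ^ 1 = 1
  rw [pow_one, ← zpow_natCast, ← zpow_mul, mul_comm, zpow_mul, zpow_natCast, sq, h, one_zpow]

omit [Finite G] in
theorem inv_pow_of_invol {s t : G} (hs : s * s = 1) (ht : t * t = 1) (k : ℕ) :
    s * (s * t) ^ k = ((s * t) ^ k)⁻¹ * s := by
  have e : s * (s * t) * s⁻¹ = (s * t)⁻¹ := by
    rw [mul_inv_rev, inv_eq_of_mul_eq_one_right hs, inv_eq_of_mul_eq_one_right ht, ← mul_assoc, hs,
      one_mul]
  rw [← inv_pow, ← e, conj_pow, inv_mul_cancel_right]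

/-- The elementary ending: `s` fixes a unique coset of `N`, and the involutions of `N` are the
`N`-conjugates of `s` and the `E`-conjugates of `z`. -/
theorem normal_of_end {N E : Subgroup G} {s z : G} (hs2 : s * s = 1) (hz2 : z * z = 1)
    (hsz : s * z = z * s) (hsN : s ∈ N)
    (h1 : ∀ g, g * s * g⁻¹ ∈ N → g ∈ N)
    (h2 : ∀ u ∈ N, u * u = 1 → u = 1 ∨ (∃ n ∈ N, u = n * s * n⁻¹) ∨ ∃ e ∈ E, u = e * z * e⁻¹)
    (h3 : ∀ g, z ≠ g * s * g⁻¹) (hz1 : z ≠ 1) (h4 : ∀ e ∈ E, z * e = e⁻¹ * z)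
    (h5 : ∀ e ∈ E, e ^ 3 = 1) : E.Normal := by
  have conj : ∀ e ∈ E, e * z * e⁻¹ = e * e * z := fun e he => by
    rw [mul_assoc, h4 _ (inv_mem he), inv_inv, mul_assoc]
  have sq : ∀ g, g * z * g⁻¹ * (g * z * g⁻¹) = 1 := fun g => by
    rw [conj_mul, hz2, mul_one, mul_inv_cancel]
  have zt : ∀ g, g * z * g⁻¹ ∈ N → ∃ e ∈ E, g * z * g⁻¹ = e * z * e⁻¹ := fun g hg => by
    rcases h2 _ hg (sq g) with h | ⟨n, -, h⟩ | h
    · exact absurd (by simpa [mul_inv_eq_one] using h) hz1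
    · exact absurd (show z = g⁻¹ * n * s * (g⁻¹ * n)⁻¹ by
        calc z = g⁻¹ * (g * z * g⁻¹) * g := by group
          _ = _ := by rw [h]; group) (h3 _)
    · exact h
  have iso : ∀ g, g * z * g⁻¹ * z = z * (g * z * g⁻¹) → g * z * g⁻¹ = z := fun g hg => by
    set C := centralizer ({z} : Set G)
    let a : C := ⟨g * z * g⁻¹, mem_centralizer_singleton_iff.2 hg⟩
    let b : C := ⟨s, mem_centralizer_singleton_iff.2 hsz⟩
    obtain ⟨P, hP⟩ := (isPGroup_zpowers_two (x := a) (Subtype.ext (sq g))).exists_le_sylow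
    obtain ⟨Q, hQ⟩ := (isPGroup_zpowers_two (x := b) (Subtype.ext hs2)).exists_le_sylow
    obtain ⟨c, hc⟩ := MulAction.exists_smul_eq C P Q
    have hc1 : (c : G) * z = z * c := mem_centralizer_singleton_iff.1 c.2
    have ha : c * a * c⁻¹ ∈ (Q : Subgroup C) := by
      rw [← hc, Sylow.coe_subgroup_smul]
      exact smul_mem_pointwise_smul a (MulAut.conj c) _ (hP (mem_zpowers a))
    have hN : (Q : Subgroup C).map C.subtype ≤ N :=
      two_le h1 hsN (Q.isPGroup'.map _) ⟨b, hQ (mem_zpowers b), rfl⟩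
    have hm : (c : G) * g * z * ((c : G) * g)⁻¹ ∈ N := by
      have := hN ⟨_, ha, rfl⟩
      simpa [a, mul_assoc] using this
    obtain ⟨e, he, h⟩ := zt _ hm
    have hc2 : (c : G) * g * z * ((c : G) * g)⁻¹ * z = z * ((c : G) * g * z * ((c : G) * g)⁻¹) := by
      have := mem_centralizer_singleton_iff.1 (c * a * c⁻¹).2
      simpa [a, mul_assoc] using this
    rw [h, conj e he, ← mul_assoc z, h4 _ (mul_mem he he), mul_left_inj, mul_left_inj,
      eq_inv_iff_mul_eq_one] at hc2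
    have e1 : e = 1 := by
      calc e = e ^ 3 * e := by rw [h5 e he, one_mul]
        _ = e * e * (e * e) := by simp only [pow_succ, pow_zero, one_mul, mul_assoc]
        _ = 1 := hc2
    rw [e1, one_mul, inv_one, mul_one] at h
    calc g * z * g⁻¹ = (c : G)⁻¹ * ((c : G) * g * z * ((c : G) * g)⁻¹) * c := by group
      _ = z := by rw [h, mul_assoc, ← hc1, inv_mul_cancel_left]
  have mem : ∀ g, g * z * g⁻¹ ∈ N := fun g => by
    obtain ⟨t, ht⟩ : ∃ t, t = g * z * g⁻¹ := ⟨_, rfl⟩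
    rw [← ht]
    have t2 : t * t = 1 := ht ▸ sq g
    have si : s⁻¹ = s := inv_eq_of_mul_eq_one_right hs2
    obtain ⟨k, hk | hk⟩ := Nat.even_or_odd' (orderOf (s * t))
    · obtain ⟨u, hu⟩ : ∃ u, u = (s * t) ^ k := ⟨_, rfl⟩
      have u2 : u * u = 1 := by rw [hu, ← pow_add, ← two_mul, ← hk, pow_orderOf_eq_one]
      have ui : u⁻¹ = u := inv_eq_of_mul_eq_one_right u2
      have us : s * u = u * s := by rw [hu, inv_pow_of_invol hs2 t2, ← hu, ui]
      have ut : t * u = u * t := by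
        have e : s * t * u = u * (s * t) := by rw [hu, ← pow_succ, ← pow_succ']
        rw [← mul_assoc, ← us, mul_assoc, mul_assoc] at e
        exact mul_left_cancel e
      have uN : u ∈ N := h1 u (by rwa [← us, mul_inv_cancel_right])
      rcases h2 u uN u2 with h | ⟨n, hn, h⟩ | ⟨e, -, h⟩
      · have := orderOf_pos (s * t)
        exact absurd (hu ▸ h) (pow_ne_one_of_lt_orderOf (by omega) (by omega))
      · have : n⁻¹ * t * n ∈ N := h1 _ (by
          have e : n⁻¹ * t * n * s * (n⁻¹ * t * n)⁻¹ = n⁻¹ * (t * u * t⁻¹) * n := by rw [h]; group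
          rw [e, ut, mul_inv_cancel_right, h]
          simpa [mul_assoc] using hsN)
        simpa [mul_assoc] using mul_mem (mul_mem hn this) (inv_mem hn)
      · have := iso (e⁻¹ * g) (by
          calc e⁻¹ * g * z * (e⁻¹ * g)⁻¹ * z = e⁻¹ * (t * u) * e := by rw [h, ht]; group
            _ = _ := by rw [ut, h, ht]; group)
        have e2 : t = u := by
          calc t = e * (e⁻¹ * g * z * (e⁻¹ * g)⁻¹) * e⁻¹ := by rw [ht]; group
            _ = u := by rw [this, h]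
        exact e2 ▸ uN
    · refine absurd (show z = g⁻¹ * ((s * t) ^ k)⁻¹⁻¹ * s * (g⁻¹ * ((s * t) ^ k)⁻¹⁻¹)⁻¹ from ?_)
        (h3 _)
      have e1 : (s * t) ^ k * (s * t) ^ k * (s * t) = 1 := by
        rw [← pow_add, ← pow_succ, ← two_mul, ← hk, pow_orderOf_eq_one]
      have e2 : s * ((s * t) ^ k)⁻¹ = (s * t) ^ k * s := by
        have := inv_pow_of_invol hs2 t2 k
        rw [eq_inv_mul_iff_mul_eq, ← mul_assoc, ← eq_mul_inv_iff_mul_eq] at this
        exact this.symm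
      have e3 : (s * t) ^ k * s * ((s * t) ^ k)⁻¹ = t := by
        rw [mul_assoc, e2, ← mul_assoc, ← mul_inv_eq_one, inv_eq_of_mul_eq_one_right t2,
          mul_assoc, e1]
      calc z = g⁻¹ * t * g := by rw [ht]; group
        _ = g⁻¹ * ((s * t) ^ k * s * ((s * t) ^ k)⁻¹) * g := by rw [e3]
        _ = _ := by group
  refine ⟨fun e he g => ?_⟩
  obtain ⟨a, ha, h⟩ := zt (g * (e * e)) (mem _)
  obtain ⟨b, hb, h'⟩ := zt g (mem _)
  have e1 : e = e * e * z * (e * e)⁻¹ * z := by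
    rw [conj _ (mul_mem he he), mul_assoc, hz2, mul_one]
    calc e = e ^ 3 * e := by rw [h5 e he, one_mul]
      _ = _ := by simp only [pow_succ, pow_zero, one_mul, mul_assoc]
  have e2 : g * e * g⁻¹ = a * a * (b * b)⁻¹ := by
    calc g * e * g⁻¹ = g * (e * e) * z * (g * (e * e))⁻¹ * (g * z * g⁻¹) := by
          conv_lhs => rw [e1]
          group
      _ = a * a * (z * (b * b)) * z := by rw [h, h', conj a ha, conj b hb]; group
      _ = _ := by rw [h4 _ (mul_mem hb hb), mul_assoc, mul_assoc _ z, hz2, mul_one]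
  rw [e2]
  exact mul_mem (mul_mem ha ha) (inv_mem (mul_mem hb hb))

/-- `normal_of_end` modulo a central subgroup `Z`, inside a subgroup `X`. -/
theorem normal_of_end' {X N E Z : Subgroup G} {s z : G} (hZ : ∀ c ∈ Z, ∀ g, c * g = g * c)
    (hZE : Z ≤ E) (hEN : E ≤ N) (hNX : N ≤ X) (hs2 : s * s = 1) (hz2 : z * z = 1)
    (hsz : s * z = z * s) (hsN : s ∈ N) (hzN : z ∈ N) (h1 : ∀ g ∈ X, g * s * g⁻¹ ∈ N → g ∈ N)
    (h2 : ∀ u ∈ N, u * u ∈ Z → u ∈ Z ∨ (∃ n ∈ N, ∃ c ∈ Z, u = n * s * n⁻¹ * c) ∨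
      ∃ e ∈ E, ∃ c ∈ Z, u = e * z * e⁻¹ * c)
    (h3 : ∀ g, ∀ c ∈ Z, z ≠ g * s * g⁻¹ * c) (hz1 : z ∉ Z) (h4 : ∀ e ∈ E, z * e * z * e ∈ Z)
    (h5 : ∀ e ∈ E, e ^ 3 ∈ Z) {g e : G} (hg : g ∈ X) (he : e ∈ E) : g * e * g⁻¹ ∈ E := by
  have : (Z.subgroupOf X).Normal := ⟨fun c hc g => by
    rw [mem_subgroupOf] at hc ⊢
    simpa [← hZ c hc] using hc⟩
  let π := QuotientGroup.mk' (Z.subgroupOf X)
  have hs := QuotientGroup.mk'_surjective (Z.subgroupOf X)
  have eq : ∀ x y : X, π x = π y ↔ (x : G)⁻¹ * y ∈ Z := fun x y => QuotientGroup.eq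
  have eq1 : ∀ x : X, π x = 1 ↔ (x : G) ∈ Z := fun x => QuotientGroup.eq_one_iff x
  have hm : ∀ M, Z ≤ M → ∀ x : X, π x ∈ (M.subgroupOf X).map π ↔ (x : G) ∈ M := fun M hM x => by
    refine ⟨fun ⟨y, hy, e⟩ => ?_, fun h => ⟨x, h, rfl⟩⟩
    simpa using mul_mem (mem_subgroupOf.1 hy) (hM ((eq _ _).1 e))
  have hZN := hZE.trans hEN
  have zi : z⁻¹ = z := inv_eq_of_mul_eq_one_right hz2
  have key := normal_of_end (N := (N.subgroupOf X).map π) (E := (E.subgroupOf X).map π)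
    (s := π ⟨s, hNX hsN⟩) (z := π ⟨z, hNX hzN⟩)
    (by rw [← map_mul, eq1]; simp [hs2]) (by rw [← map_mul, eq1]; simp [hz2])
    (by rw [← map_mul, ← map_mul, eq]; simp [hsz]) ((hm _ hZN _).2 hsN)
    (fun g h => by
      obtain ⟨g, rfl⟩ := hs g
      rw [← map_inv, ← map_mul, ← map_mul, hm _ hZN] at h
      exact (hm _ hZN _).2 (h1 g g.2 h))
    (fun u hu h => by
      obtain ⟨u, rfl⟩ := hs u
      rw [← map_mul, eq1] at h
      rcases h2 u ((hm _ hZN _).1 hu) h with h | ⟨n, hn, c, hc, h⟩ | ⟨n, hn, c, hc, h⟩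
      · exact .inl ((eq1 _).2 h)
      · refine .inr (.inl ⟨π ⟨n, hNX hn⟩, (hm _ hZN _).2 hn, Eq.symm ?_⟩)
        rw [← map_inv, ← map_mul, ← map_mul, eq]
        simpa [h, mul_assoc] using hc
      · refine .inr (.inr ⟨π ⟨n, hNX (hEN hn)⟩, (hm _ hZE _).2 hn, Eq.symm ?_⟩)
        rw [← map_inv, ← map_mul, ← map_mul, eq]
        simpa [h, mul_assoc] using hc)
    (fun g h => by
      obtain ⟨g, rfl⟩ := hs g
      rw [← map_inv, ← map_mul, ← map_mul, eq_comm, eq] at h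
      exact h3 g _ h (by simp [mul_assoc]))
    (fun h => hz1 ((eq1 _).1 h))
    (fun e he => by
      obtain ⟨e, rfl⟩ := hs e
      rw [← map_inv, ← map_mul, ← map_mul, eq_comm, eq]
      have := h4 e ((hm _ hZE _).1 he)
      simpa [zi, mul_assoc] using this)
    (fun e he => by
      obtain ⟨e, rfl⟩ := hs e
      rw [← map_pow, eq1]
      exact h5 e ((hm _ hZE _).1 he))
  have := key.conj_mem (π ⟨e, hNX (hEN he)⟩) ((hm _ hZE _).2 he) (π ⟨g, hg⟩)
  rw [← map_inv, ← map_mul, ← map_mul, hm _ hZE] at this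
  exact this

/-- A group of order nine all of whose non-trivial elements have the same fixed points. -/
theorem le_of_fix {K K₀ A : Subgroup G} [IsMulCommutative A] (hA : ¬ IsCyclic A)
    (hc : Nat.card A = 9) (hAK : A ≤ normalizer (K : Set G)) (h0 : K₀ ≤ K)
    (hC : ∀ a ∈ A, ∀ k ∈ K₀, a * k = k * a)
    (hF : ∀ a ∈ A, a ≠ 1 → K ⊓ centralizer {a} ≤ K₀) (h9 : ¬ 9 ∣ Nat.card K₀) {t : G}
    (ht : t ∈ K₀) (ht3 : orderOf t = 3) (hr : ∀ g ∈ K, g * t * g⁻¹ ≠ t⁻¹) : K ≤ K₀ := by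
  classical
  have : Fact (Nat.Prime 3) := ⟨Nat.prime_three⟩
  have n9 : ¬ 9 ∣ Nat.card K := fun h => by
    let Ω := {k : K // (k : G) ∉ K₀}
    let : MulAction A Ω :=
      { smul := fun a k => ⟨⟨a * k.1 * (a : G)⁻¹, (mem_normalizer_iff.1 (hAK a.2) _).1 k.1.2⟩,
          fun h => k.2 (by
            have e : (a : G)⁻¹ * (a * k.1 * (a : G)⁻¹) = a * k.1 * (a : G)⁻¹ * (a : G)⁻¹ :=
              hC _ (inv_mem a.2) _ h
            rw [← mul_assoc, ← mul_assoc, inv_mul_cancel, one_mul, mul_left_inj] at e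
            exact e ▸ h)⟩
        one_smul := fun k => Subtype.ext (Subtype.ext (by change ((1 : A) : G) * _ * _ = _; simp))
        mul_smul := fun a b k => Subtype.ext (Subtype.ext (by
          change ((a * b : A) : G) * _ * _ = a * (b * _ * _) * _
          simp [mul_assoc])) }
    have free : ∀ k : Ω, MulAction.stabilizer A k = ⊥ := fun k => by
      refine eq_bot_iff.2 fun a ha => ?_
      by_contra h1
      have e : (a : G) * k.1 * (a : G)⁻¹ = k.1 := congrArg (fun x : Ω => (x.1 : G)) ha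
      exact k.2 (hF a a.2 (fun e => h1 (Subtype.ext e)) ⟨k.1.2,
        mem_centralizer_singleton_iff.2 (mul_inv_eq_iff_eq_mul.1 e).symm⟩)
    have e1 := Nat.card_congr (MulAction.selfEquivOrbitsQuotientProd free)
    rw [Nat.card_prod, hc] at e1
    have e2 := Nat.card_congr (Equiv.sumCompl fun k : K => (k : G) ∈ K₀)
    rw [Nat.card_sum] at e2
    have e3 : Nat.card {k : K // (k : G) ∈ K₀} = Nat.card K₀ :=
      Nat.card_congr (subgroupOfEquivOfLe h0).toEquiv
    rw [← e2, e3] at h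
    exact h9 ((Nat.dvd_add_left (e1 ▸ dvd_mul_left _ _)).1 h)
  let τ : K := ⟨t, h0 ht⟩
  have hτ : orderOf τ = 3 := by rw [← ht3, ← orderOf_coe]
  have hf : (Nat.card K).factorization 3 = 1 := by
    have h1 := (Nat.prime_three.dvd_iff_one_le_factorization Nat.card_pos.ne').1
      (hτ ▸ orderOf_dvd_natCard τ)
    have h2 := mt (Nat.prime_three.pow_dvd_iff_le_factorization (k := 2) Nat.card_pos.ne').2 n9
    omega
  let P : Sylow 3 K := Sylow.ofCard (zpowers τ) (by rw [hf, Nat.card_zpowers, hτ, pow_one])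
  have hP : (P : Subgroup K) = zpowers τ := rfl
  have hN : normalizer (P : Set K) ≤ centralizer (P : Set K) := fun g hg => by
    have h1 : g * τ * g⁻¹ ∈ zpowers τ := (mem_normalizer_iff.1 hg τ).1 (mem_zpowers τ)
    have h2 : g * τ * g⁻¹ = τ := by
      rw [mem_zpowers_iff_mem_range_orderOf, hτ, Finset.mem_image] at h1
      obtain ⟨i, hi, e⟩ := h1
      rw [Finset.mem_range] at hi
      interval_cases i
      · have : τ = 1 := by simpa [mul_inv_eq_one] using e.symm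
        rw [this, orderOf_one] at hτ
        omega
      · rw [← e, pow_one]
      · refine absurd (congrArg Subtype.val e).symm fun h => hr g g.2 (h.trans ?_)
        rw [eq_inv_iff_mul_eq_one, coe_pow, ← pow_succ]
        exact (ht3 ▸ pow_orderOf_eq_one t : t ^ 3 = 1)
    rintro _ ⟨k, rfl⟩
    exact ((show Commute g τ from mul_inv_eq_iff_eq_mul.1 h2).zpow_right k).symm
  set f := MonoidHom.transferSylow P hN
  have hk : ¬ 3 ∣ Nat.card f.ker := MonoidHom.not_dvd_card_ker_transferSylow P hN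
  have hK' : f.ker.map K.subtype ≤ K₀ := by
    refine Coprime.le_of_forall_centralizer_le hA (fun a ha => ?_) ?_
      fun a ha h1 => (inf_le_inf_right _ (map_subtype_le _)).trans (hF a ha h1)
    · refine mem_normalizer_fintype fun x hx => ?_
      obtain ⟨x, hx, rfl⟩ := hx
      let y : K := ⟨a * x * a⁻¹, (mem_normalizer_iff.1 (hAK ha) _).1 x.2⟩
      refine ⟨y, ?_, rfl⟩
      have h1 : y ^ Nat.card f.ker = 1 := Subtype.ext (by
        have : x ^ Nat.card f.ker = 1 :=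
          congrArg Subtype.val (pow_card_eq_one' (x := (⟨x, hx⟩ : f.ker)))
        rw [coe_pow, conj_pow, ← coe_pow, this]
        simp)
      have h2 : f y ^ 3 = 1 := by
        have := pow_card_eq_one' (x := f y)
        rwa [show Nat.card P = 3 from (Nat.card_zpowers τ).trans hτ] at this
      have h3 : f y ^ Nat.card f.ker = 1 := by rw [← map_pow, h1, map_one]
      have := pow_gcd_eq_one.2 ⟨h2, h3⟩
      rwa [(Nat.prime_three.coprime_iff_not_dvd.2 hk).gcd_eq_one, pow_one] at this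
    · rw [hc, card_map_of_injective K.subtype_injective]
      exact (Nat.prime_three.coprime_iff_not_dvd.2 hk).pow_left 2
  intro k hk
  obtain ⟨⟨x, y⟩, e⟩ := (MonoidHom.ker_transferSylow_isComplement' P hN).2 ⟨k, hk⟩
  have e' : ((x : K) : G) * (y : K) = k := congrArg Subtype.val e
  obtain ⟨j, hj⟩ := y.2
  rw [← e', ← hj]
  exact mul_mem (hK' ⟨x, x.2, rfl⟩) (zpow_mem ht j)

/-- `le_of_fix` modulo a central subgroup `Z`. -/
theorem le_of_fix' {K K₀ Z : Subgroup G} (hZ : ∀ c ∈ Z, ∀ g, c * g = g * c)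
    (hKZ : ∀ k ∈ K, k ∈ Z → k = 1) (e : ZMod 3 × ZMod 3 → G)
    (he : ∀ a b, (e (a + b))⁻¹ * (e a * e b) ∈ Z) (he0 : ∀ a, e a ∈ Z → a = 0)
    (hn : ∀ a, ∀ k ∈ K, e a * k * (e a)⁻¹ ∈ K) (h0 : K₀ ≤ K)
    (hC : ∀ a, ∀ k ∈ K₀, e a * k = k * e a)
    (hF : ∀ a, a ≠ 0 → ∀ k ∈ K, e a * k = k * e a → k ∈ K₀) (h9 : ¬ 9 ∣ Nat.card K₀) {t : G}
    (ht : t ∈ K₀) (ht3 : orderOf t = 3) (hr : ∀ g ∈ K, g * t * g⁻¹ ≠ t⁻¹) : K ≤ K₀ := by
  have : Z.Normal := ⟨fun c hc g => by simpa [← hZ c hc] using hc⟩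
  let π := QuotientGroup.mk' Z
  have eq : ∀ x y, π x = π y ↔ x⁻¹ * y ∈ Z := fun x y => QuotientGroup.eq
  have inj : ∀ x ∈ K, ∀ y ∈ K, π x = π y → x = y := fun x hx y hy h =>
    inv_mul_eq_one.1 (hKZ _ (mul_mem (inv_mem hx) hy) ((eq _ _).1 h))
  let φ : Multiplicative (ZMod 3 × ZMod 3) →* G ⧸ Z := MonoidHom.mk' (fun a => π (e a.toAdd))
    fun a b => by rw [← map_mul, eq]; exact he _ _
  have hφ : Function.Injective φ := (injective_iff_map_eq_one φ).2 fun a h =>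
    he0 a.toAdd ((QuotientGroup.eq_one_iff _).1 h)
  have E := MonoidHom.ofInjective hφ
  have : IsMulCommutative φ.range := ⟨⟨fun a b => E.symm.injective (by
    rw [map_mul, map_mul, mul_comm])⟩⟩
  have key : K.map π ≤ K₀.map π := by
    refine le_of_fix (A := φ.range) (t := π t) (fun h => ?_) ?_ ?_ (map_mono h0) ?_ ?_ ?_
      ⟨t, ht, rfl⟩ ?_ ?_
    · have h1 := isCyclic_of_surjective _ E.symm.surjective
      have h2 := h1.exponent_eq_card
      have h3 : Monoid.exponent (Multiplicative (ZMod 3 × ZMod 3)) ∣ 3 :=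
        Monoid.exponent_dvd_of_forall_pow_eq_one (by decide)
      rw [h2, Nat.card_eq_fintype_card] at h3
      revert h3
      decide
    · rw [← Nat.card_congr E.toEquiv, Nat.card_eq_fintype_card]
      rfl
    · rintro _ ⟨a, rfl⟩
      refine mem_normalizer_fintype ?_
      rintro _ ⟨k, hk, rfl⟩
      exact ⟨_, hn a.toAdd k hk, by simp [φ]⟩
    · rintro _ ⟨a, rfl⟩ _ ⟨k, hk, rfl⟩
      exact (map_mul π _ _).symm.trans ((congrArg π (hC _ k hk)).trans (map_mul π _ _))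
    · rintro _ ⟨a, rfl⟩ h1 _ ⟨⟨k, hk, rfl⟩, h2⟩
      refine ⟨k, hF a.toAdd (fun h => h1 (by rw [show a = 1 from h, map_one])) k hk ?_, rfl⟩
      have h3 : π k * π (e a.toAdd) = π (e a.toAdd) * π k := mem_centralizer_singleton_iff.1 h2
      refine mul_inv_eq_iff_eq_mul.1 (inj _ (hn _ k hk) _ hk ?_)
      rw [map_mul, map_mul, ← h3, map_inv, mul_inv_cancel_right]
    · rwa [← Nat.card_congr (Equiv.ofBijective (π.subgroupMap K₀) ⟨fun x y h => Subtype.ext
        (inj _ (h0 x.2) _ (h0 y.2) (congrArg Subtype.val h)), π.subgroupMap_surjective K₀⟩)]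
    · have : Fact (Nat.Prime 3) := ⟨Nat.prime_three⟩
      refine orderOf_eq_prime (by rw [← map_pow, ← ht3, pow_orderOf_eq_one, map_one]) fun h => ?_
      rw [inj _ (h0 ht) _ (one_mem _) h, orderOf_one] at ht3
      omega
    · rintro _ ⟨g, hg, rfl⟩ h
      refine hr g hg (inj _ (mul_mem (mul_mem hg (h0 ht)) (inv_mem hg)) _ (inv_mem (h0 ht)) ?_)
      simpa using h
  intro k hk
  obtain ⟨y, hy, h⟩ := key ⟨k, hk, rfl⟩
  exact inj _ (h0 hy) _ hk h ▸ hy

end CfsgLib.C9
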