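import Cfsg.Agent.Lib.C9.Defs

/-! The centraliser of a non-central element of the extraspecial group (plans/C9.md). -/

set_option autoImplicit false

namespace CfsgLib.C9

open Matrix Subgroup Equiv Cfsg Cfsg.Geo CfsgLib.Asch CfsgLib.Mit CfsgLib.Mit.Gm
open scoped commutatorElement

variable {F : Type*} [Field F] [Finite F] {ω : F} {hω : Om ω} {u : Prop} {ψ : F →+* F} {X : Subgroup (G9 F)}
  {k : G9 F} {b : Fin 3 → G3 F} {y : G3 F}

omit [Finite F] in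
include hω in
theorem act_one_of (hx : ⁅y, xS hω⁆ ∈ scalars (Fin 3) F) (hy : ⁅y, yS F⁆ ∈ scalars (Fin 3) F) : Act ω y 1 := by
  have k : ∀ g : G3 F, ⁅y, g⁆ ∈ scalars (Fin 3) F → ∃ s : F, cj y g = s • (g : M3 F) := fun g ⟨s, e⟩ =>
    ⟨s, by rw [cj_coe, show y * g * y⁻¹ = sc (Fin 3) s * g from eq_mul_of_mul_inv_eq e.symm, Units.val_mul, coe_sc,
      smul_mul_assoc, one_mul]⟩
  obtain ⟨s, e1⟩ := k _ hx
  obtain ⟨t, e2⟩ := k _ hy
  rw [one_fin_two]
  exact act_of hω (e1 ▸ pr_X.smul s) (e2 ▸ pr_Y.smul t)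

/-- linear maps of the plane -/
def gl2 (i j l : Fin 2) (k : Fin 3) : Perm I9 := swM.π ^ i.val * (shM k).π * swM.π ^ j.val * zM.π ^ l.val

theorem ng_snd (f : Fin 3 → Fin 3) : NG (dM fun q => f q.2) := by
  revert f
  decide +kernel

/-- diagonal matrices -/
def dgH : (I9 → Fˣ) →* G9 F := MonoidHom.mk' (mn · 1) fun _ _ => (mn_mul (π := 1) (ρ := 1)).symm

def pMH : Perm I9 →* Mo := MonoidHom.mk' pM fun _ _ => rfl

omit [Finite F] in
theorem conj_mn_one (π : Perm I9) (d : I9 → Fˣ) :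
    mon hω (pM π) * mn d 1 * (mon hω (pM π))⁻¹ = mn (fun q => d (π⁻¹ q)) 1 := by
  rw [mul_inv_eq_iff_eq_mul, mon_pM, mn_mul, mn_mul]
  simp [mul_comm]

omit [Finite F] in
theorem tS_mem_SG : tS F ∈ SG (Fin 3) u ψ := ⟨tS_eq (F := F) ▸ mn_mem_UG.2 (by simp), Units.ext det_tS⟩

omit [Finite F] in
theorem dg_mem_SG {a : Fˣ} (ha : u → (a : F) * ψ a = 1) : dg a⁻¹ a 1 ∈ SG (Fin 3) u ψ :=
  ⟨dg_eq a⁻¹ a 1 ▸ mn_mem_UG.2 fun hu q => by
    fin_cases q
    · show ((a⁻¹ : Fˣ) : F) * ψ (a⁻¹ : Fˣ) = 1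
      rw [Units.val_inv_eq_inv_val, map_inv₀, ← mul_inv, ha hu, inv_one]
    · exact ha hu
    · simp, Units.ext (by simp [det_dg])⟩

omit [Finite F] in
theorem bd_single_tS : bd (Pi.mulSingle 0 (tS F)) =
    mn (fun q => ![-1, 1, 1] q.2) (prodCongrLeft ![Equiv.neg _, 1, 1]) := by
  rw [← bd_mn fun j _ => ![-1, 1, 1] j]
  refine congrArg _ (funext fun j => ?_)
  fin_cases j <;> simp [tS_eq, mn_one]

namespace Ctx

variable (c : Ctx hω u ψ X)
include c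

omit [Finite F] in
theorem shift (hb : bd b ∈ X) (t : Fin 3) : bd (fun j => b (j - t)) ∈ X := by
  have h := c.mon_mem ((by decide : ∀ t : Fin 3, NG (pM (Equiv.addRight (0, t)))) t)
  convert mul_mem (mul_mem h hb) (inv_mem h) using 1
  refine Units.ext ?_
  rw [conj_pM]
  ext ⟨i, j⟩ ⟨k, l⟩
  simp [coe_bd, blockDiagonal_apply, sub_eq_add_neg]

omit [Finite F] in
theorem single (j : Fin 3) (hb : bd (Pi.mulSingle j y) ∈ X) : bd (Pi.mulSingle 0 y) ∈ X := by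
  convert c.shift hb (-j) using 2
  ext1 i
  simp [Pi.mulSingle_apply]

omit [Finite F] in
theorem two_trans {p q : I9} (n : p ≠ q) : ∃ π, mon hω (pM π) ∈ X ∧ π (0, 0) = p ∧ π (1, 0) = q := by
  obtain ⟨i, j, l, k, h1, h2, h3⟩ := (by decide +kernel : ∀ p q : I9, p ≠ q → ∃ i j l k,
    (Equiv.addRight p * gl2 i j l k) (1, 0) = q ∧ (Equiv.addRight p * gl2 i j l k) (0, 0) = p ∧
      NG (pM (Equiv.addRight p * gl2 i j l k))) p q n
  exact ⟨_, c.mon_mem h3, h2, h1⟩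

omit [Finite F] in
/-- a signed transposition and the diagonal matrices of one block give all monomial matrices -/
theorem not_end (h1 : bd (Pi.mulSingle 0 (tS F)) ∈ X)
    (h2 : ∀ a : Fˣ, (u → (a : F) * ψ a = 1) → bd (Pi.mulSingle 0 (dg a⁻¹ a 1)) ∈ X) : False := by
  have k1 : ∀ d, mn d 1 ∈ SG I9 u ψ → mn d 1 ∈ X := fun d hd => by
    have e : ∏ q, d q = 1 := by simpa [det_mn] using mem_SL.1 hd.2
    have : d = ∏ q, (Pi.mulSingle (0, 0) (d q)⁻¹ * Pi.mulSingle q (d q) : I9 → Fˣ) := by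
      rw [Finset.prod_mul_distrib, Finset.univ_prod_mulSingle, eq_comm, mul_eq_right]
      exact (map_prod (MonoidHom.mulSingle (fun _ : I9 => Fˣ) (0, 0)) _ _).symm.trans (by simp [e])
    rw [this]
    refine prod_mem (S := X.comap dgH) fun q _ => ?_
    by_cases n : (0, 0) = q
    · rw [← n, ← Pi.mulSingle_mul, inv_mul_cancel, Pi.mulSingle_one]
      exact one_mem _
    obtain ⟨π, h3, h4, rfl⟩ := c.two_trans n
    have h5 := h2 _ fun hu => mn_mem_UG.1 hd.1 hu (π (1, 0))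
    rw [show bd (Pi.mulSingle 0 (dg (d (π (1, 0)))⁻¹ (d (π (1, 0))) 1)) =
      mn (Pi.mulSingle (0, 0) (d (π (1, 0)))⁻¹ * Pi.mulSingle (1, 0) (d (π (1, 0)))) 1 by
        refine Eq.trans (congrArg _ (funext fun j => ?_)) (bd_mn (fun j i => (Pi.mulSingle (0, 0) (d (π (1, 0)))⁻¹ *
          Pi.mulSingle (1, 0) (d (π (1, 0))) : I9 → Fˣ) (i, j)) fun _ => 1)
        ext i k
        fin_cases j <;> fin_cases i <;> fin_cases k <;> simp [coe_dg, mn_apply]] at h5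
    have h6 := mul_mem (mul_mem h3 h5) (inv_mem h3)
    rw [conj_mn_one] at h6
    show mn _ 1 ∈ X
    convert h6 using 2
    ext1 r
    nth_rewrite 1 [← h4]
    simp [Pi.mulSingle_apply, Equiv.symm_apply_eq]
  have k2 : ∀ d e π, mn d π ∈ X → mn e π ∈ SG I9 u ψ → mn e π ∈ X := fun d e π hd he => by
    have : mn d π * mn (fun q => (d q)⁻¹ * e q) 1 = mn e π := by simp [mn_mul]
    rw [← this] at he ⊢
    exact mul_mem hd (k1 _ ((mul_mem_cancel_left (c.le hd)).1 he))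
  have k3 : ∀ π, mon hω (pM π) ∈ SG I9 u ψ := fun π => C9.mon_mem hω c.om (by simp)
  have k4 : ∀ p q p' q' : I9, p ≠ q → p' ≠ q' → swap p q ∈ (X.comap (mon hω)).comap pMH →
      swap p' q' ∈ (X.comap (mon hω)).comap pMH := fun p q p' q' n n' h => by
    obtain ⟨π, h3, rfl, rfl⟩ := c.two_trans n
    obtain ⟨ρ, h4, rfl, rfl⟩ := c.two_trans n'
    rw [swap_apply_apply] at h ⊢
    exact mul_mem (mul_mem h4 ((mul_mem_cancel_left (H := (X.comap (mon hω)).comap pMH) h3).1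
      ((mul_mem_cancel_right (H := (X.comap (mon hω)).comap pMH) (inv_mem h3)).1 h))) (inv_mem h4)
  refine c.fin fun d π hd => k2 _ _ _ (mon_pM hω π ▸ show mon hω (pM π) ∈ X from
    show π ∈ (X.comap (mon hω)).comap pMH from ?_) hd
  refine Perm.swap_induction_on π (one_mem _) fun f p q n hf => mul_mem (k4 (1, 0) (2, 0) _ _ (by decide) n ?_) hf
  rw [bd_single_tS, show prodCongrLeft ![Equiv.neg (Fin 3), 1, 1] = swap (1, 0) (2, 0) by decide] at h1
  show mon hω (pM _) ∈ X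
  exact mon_pM hω _ ▸ k2 _ _ _ h1 (mon_pM hω _ ▸ k3 _)

omit [Finite F] in
theorem norm_map {N : Subgroup (Fin 3 → G3 F)} [N.Normal] (j : Fin 3) : (X.comap bd).map (Pi.evalMonoidHom _ j) ≤
    normalizer ((X.comap bd ⊓ N).map (Pi.evalMonoidHom _ j) : Set (G3 F)) :=
  (map_mono (le_trans (le_inf le_normalizer (normalizer_eq_top N ▸ le_top)) inf_normalizer_le_normalizer_inf)).trans
    (le_normalizer_map _)

theorem Hs_le (j : Fin 3) : Hs hω ≤ (X.comap bd).map (Pi.evalMonoidHom _ j) := fun h hh => ⟨fun _ => h, c.Δ_mem hh, rfl⟩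

omit [Finite F] in
theorem le_UG (j : Fin 3) : (X.comap bd).map (Pi.evalMonoidHom _ j) ≤ UG (Fin 3) u ψ := by
  rintro _ ⟨b, hb, rfl⟩
  exact bd_mem_UG.1 (c.le hb).1 j

theorem blk_mem (hb : bd b ∈ X) (j : Fin 3) : b j ∈ N3 hω := by
  rcases c.mit _ (c.le_UG 1) ((c.Hs_le 1).trans le_normalizer) with h | ⟨h, h2⟩
  · exact h ⟨_, c.shift hb (1 - j), by simp⟩
  have k : ∀ i, yS F ∈ (X.comap bd ⊓ (Pi.evalMonoidHom _ i).ker).map (Pi.evalMonoidHom _ 1) →
      SG (Fin 3) u ψ ≤ (X.comap bd ⊓ (Pi.evalMonoidHom _ i).ker).map (Pi.evalMonoidHom _ 1) := fun i hy => by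
    refine ((c.mit _ ((map_mono inf_le_left).trans (c.le_UG 1)) ((c.Hs_le 1).trans (c.norm_map 1))).resolve_left
      fun e => h2 ?_).1
    have := e (mul_mem ((mem_normalizer_iff.1 (c.norm_map 1 (h (dg_mem_SG (a := -1) (by simp)))) _).1 hy) (inv_mem hy))
    rw [← commutatorElement_def, comm_dg_yS] at this
    have := congrArg Units.val (dg_mem_N3 hω this).1
    simp at this
    linear_combination -this
  have k0 := k 0 ⟨_, ⟨c.β_mem (yS_mem hω), rfl⟩, rfl⟩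
  have k2 := k 2 ⟨_, ⟨c.shift (c.β_mem (inv_mem (yS_mem hω))) 2, rfl⟩, by
    show tS F * (yS F)⁻¹ * (tS F)⁻¹ = yS F
    rw [← conj_inv, tS_yS, inv_inv]⟩
  have k1 : SG (Fin 3) u ψ ≤ (X.comap bd).comap (MonoidHom.mulSingle _ 1) := by
    refine ((c.perf h2).trans (commutator_mono k0 k2)).trans (commutator_le.2 ?_)
    rintro _ ⟨a, ⟨ha, a0⟩, rfl⟩ _ ⟨b, ⟨hb, b2⟩, rfl⟩
    have : ⁅a, b⁆ ∈ X.comap bd := mul_mem (mul_mem (mul_mem ha hb) (inv_mem ha)) (inv_mem hb)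
    convert this using 1
    rw [mem_comap]
    congr! 1
    ext1 j
    fin_cases j <;> simp [commutatorElement_def, show a 0 = 1 from a0, show b 2 = 1 from b2]
  exact (c.not_end (c.single 1 (k1 tS_mem_SG)) fun a ha => c.single 1 (k1 (dg_mem_SG ha))).elim

theorem not_stdR (h : stdR hω ≤ (X.comap bd).comap (MonoidHom.mulSingle _ 0)) : False := by
  have hs := c.mon_mem (m := swM) (by decide)
  have h1 : bd (fun j => dS hω ^ j.val) ∈ X := by
    have := mul_mem (mul_mem hs (show bd _ ∈ X from h (xS_mem hω))) (inv_mem hs)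
    rwa [bd_eq_mon hω (f := fun j i => ![i, 0, 0] j) (π := fun _ => 1) (s := 1) (fun j => by
      fin_cases j <;> simp [xS_eq, wp_zero, mn_one]) (sg_eq_one (by decide)) rfl, mon_conj,
      ← bd_eq_mon hω (b := fun j => dS hω ^ j.val) (f := fun j => ![j, 0, 0]) (π := fun _ => 1) (s := 1) (fun j => by
        fin_cases j <;> simp only [dS_eq, pow_succ, pow_zero, one_mul, mn_mul, ← mn_one] <;>
          refine congrArg (mn · _) (funext fun i => ?_) <;> fin_cases i <;> simp [wp, pow_two])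
        (sg_eq_one (by decide)) (by decide)] at this
  have hf := c.Δ_mem (H4_le hω (fS_H4 hω))
  have h2 := mul_mem (mul_mem hf (c.shift (b := fun j => (dS hω ^ j.val)⁻¹) ((X.comap bd).inv_mem h1) 1)) (inv_mem hf)
  rw [Δ_eq, ← map_inv, ← map_mul, ← map_mul] at h2
  have h3 := pow_mem (mul_mem (c.shift h1 2) h2) 3
  have d3 : dS hω ^ 3 = 1 := by
    rw [dS, pow_three, dg_mul, dg_mul, ← pow_three, wU_cube hω, mul_one, mul_one, dg_one]
  have d2 : (dS hω ^ 2)⁻¹ = dS hω := inv_eq_of_mul_eq_one_right (by rw [← pow_succ, d3])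
  replace h3 : bd (Pi.mulSingle 0 ((dS hω * (fS hω * dS hω * (fS hω)⁻¹)) ^ 3)) ∈ X := by
    rw [← map_mul, ← map_pow] at h3
    convert h3 using 2
    ext1 j
    fin_cases j
    · simp [show (-2 : Fin 3).val = 1 from rfl, show ((0 : Fin 3) - 1).val = 2 from rfl, d2]
    · simp [show ((1 : Fin 3) - 2).val = 2 from rfl, pow_right_comm _ 2, d3]
    · simp [d3]
  have h4 : bd (Pi.mulSingle 0 (tS F)) ∈ X := by
    have e := (act_tS hω).mul (((act_dS hω).mul (((act_fS hω).mul (act_dS hω)).mul (act_inv hω (act_fS hω)))).pow 3)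
    rw [adjugate_fin_two_of, (by decide +kernel : (-1 * (!![1, 1; 0, 1] * (!![0, 1; 2, 0] * !![1, 1; 0, 1] *
      !![0, -1; -2, 0])) ^ 3 : Matrix (Fin 2) (Fin 2) (ZMod 3)) = 1)] at e
    have e1 := h (e.mem hω (by
      rw [Units.val_mul, det_mul, det_tS, one_mul, Units.val_pow_eq_pow_val, det_pow]
      exact det_Hs hω (H4_le hω (mul_mem (dS_H4 hω) (mul_mem (mul_mem (fS_H4 hω) (dS_H4 hω)) (inv_mem (fS_H4 hω)))))))
    rw [mem_comap, mem_comap, map_mul, map_mul] at e1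
    exact (mul_mem_cancel_right h3).1 e1
  by_cases h2 : (2 : F) = 0
  · refine c.not_end h4 fun a ha => h (dg_mem_stdR hω ?_)
    have := (c.mit _ le_rfl ((Hs_le_UG hω c.om).trans le_normalizer)).resolve_right (fun e => e.2 h2)
      (show dg a 1 1 ∈ _ from dg_eq a 1 1 ▸ mn_mem_UG.2 fun hu q => by fin_cases q <;> simp [ha hu])
    simpa using (dg_mem_N3 hω this).1
  have h5 := mul_mem (mul_mem hs (show bd _ ∈ X from h (yS_mem hω))) (inv_mem hs)
  rw [bd_eq_mon hω (f := 0) (π := ![Equiv.addRight 1, 1, 1]) (s := 1) (fun j => by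
    fin_cases j <;> simp [yS_eq, wp_zero, mn_one]) (sg_eq_one (by decide)) rfl, mon_conj,
    show _ * _ * _ = pM (prodCongrRight ![Equiv.addRight 1, 1, 1]) by decide] at h5
  have h6 := mul_mem (mul_mem h5 h4) (inv_mem h5)
  rw [show _ * _ * _ = bd fun j => mn (![![1, -1, -1], ![-1, 1, 1], ![1, 1, 1]] j) (![Equiv.neg _, 1, 1] j) by
    rw [mul_inv_eq_iff_eq_mul, bd_single_tS, bd_mn, mon_pM, mn_mul, mn_mul]
    congr 1
    · ext ⟨i, j⟩
      fin_cases i <;> fin_cases j <;> simp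
    · decide] at h6
  have := congrArg Units.val (dg_mem_N3 hω (dg_eq (-1 : Fˣ) 1 1 ▸ c.blk_mem h6 1)).1
  simp at this
  exact h2 (by linear_combination -this)

theorem scalar_of {s t : Fˣ} (hb : bd ![y, sc (Fin 3) s, sc (Fin 3) t] ∈ X) : y ∈ scalars (Fin 3) F := by
  by_contra n
  have h := stdR_le_of hω ((c.Hs_le 0).trans (c.norm_map (N := (scalars (Fin 3) F).comap (Pi.evalMonoidHom _ 1) ⊓
    (scalars (Fin 3) F).comap (Pi.evalMonoidHom _ 2)) 0)) ⟨_, ⟨hb, sc_mem s, sc_mem t⟩, rfl⟩ (c.blk_mem hb 0) n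
  have k : ∀ r ∈ stdR hω, tS F * r * (tS F)⁻¹ = r⁻¹ → 
      r ∈ (X.comap bd).comap (MonoidHom.mulSingle (fun _ : Fin 3 => G3 F) 0) :=
    fun r hr e => by
      obtain ⟨b, ⟨h1, h2, h3⟩, rfl⟩ := h hr
      have ht : (fun _ => tS F) ∈ X.comap bd := c.Δ_mem (H4_le hω (tS_H4 hω))
      have := mul_mem (mul_mem (mul_mem ht h1) (inv_mem ht)) (inv_mem h1)
      show Pi.mulSingle 0 (b 0) ∈ X.comap bd
      convert this using 1
      ext1 j
      fin_cases j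
      · exact (show tS F * b 0 * (tS F)⁻¹ * (b 0)⁻¹ = b 0 by
          rw [show tS F * b 0 * (tS F)⁻¹ = (b 0)⁻¹ from e, ← _root_.mul_inv_rev, inv_eq_iff_mul_eq_one, ← pow_three']
          exact cube_stdR hω hr).symm
      · simp [← mul_comm_of_mem_scalars (show b 1 ∈ _ from h2)]
      · simp [← mul_comm_of_mem_scalars (show b 2 ∈ _ from h3)]
  exact c.not_stdR (stdR_le hω (k _ (xS_mem hω) (tS_xS hω)) (one_smul _ _).symm (one_pow 3) (k _ (yS_mem hω) tS_yS))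

theorem exists_wp {s : Fin 3 → Fˣ} (hb : bd (fun j => sc (Fin 3) (s j)) ∈ X) :
    ∃ f : Fin 3 → Fin 3, ∀ j, s j = s 0 * wp hω (f j) := by
  have hs := c.mon_mem (m := swM) (by decide)
  have h := mul_mem (mul_mem hs hb) (inv_mem hs)
  rw [bd_sc, conj_mn_one, show (mn _ 1 : G9 F) = bd fun _ => dg (s 0) (s 1) (s 2) by
    simp only [dg_eq, bd_mn]
    refine congrArg (mn · _) (funext fun ⟨i, j⟩ => ?_)
    fin_cases i <;> rfl] at h
  obtain ⟨h1, h2⟩ := dg_mem_N3 hω (c.blk_mem h 0)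
  have k : ∀ j, ∃ a, (s 0)⁻¹ * s j = wp hω a := fun j => C9.exists_wp hω (by
    rw [mul_pow, inv_pow, inv_mul_eq_one]
    fin_cases j
    exacts [rfl, h1, h1.trans h2])
  choose f hf using k
  exact ⟨f, fun j => eq_mul_of_inv_mul_eq (hf j)⟩

theorem act_blk (hb : bd b ∈ X) {s : Fˣ} (e0 : b 0 = sc (Fin 3) s) : Act ω (b 1) 1 := by
  have k : ∀ g ∈ stdR hω, tS F * g * (tS F)⁻¹ = g⁻¹ → ⁅b 1, g⁆ ∈ scalars (Fin 3) F := fun g hg e => by
    have h2 := c.shift (c.β_mem (inv_mem hg)) 2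
    have h3 := mul_mem (mul_mem (mul_mem hb h2) (inv_mem hb)) (inv_mem h2)
    rw [← map_inv, ← map_inv, ← map_mul, ← map_mul, ← map_mul] at h3
    refine c.scalar_of (s := 1) (t := 1) ((congrArg (bd · ∈ X) (funext fun j => ?_)).mp (c.shift h3 2))
    fin_cases j
    · show b 1 * (tS F * g⁻¹ * (tS F)⁻¹) * (b 1)⁻¹ * (tS F * g⁻¹ * (tS F)⁻¹)⁻¹ = _
      rw [← conj_inv, e, inv_inv]
      rfl
    · show b 2 * 1 * (b 2)⁻¹ * 1⁻¹ = _
      simp
    · show b 0 * g⁻¹ * (b 0)⁻¹ * g⁻¹⁻¹ = _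
      simp [e0, ← sc_comm]
  exact act_one_of (k _ (xS_mem hω) (tS_xS hω)) (k _ (yS_mem hω) tS_yS)

theorem cent_a_struct (hk : k ∈ X) (e : k * mon hω aM = mon hω aM * k) :
    ∃ h ∈ H4 hω, ∃ r : Fin 3 → G3 F, (∀ j, r j ∈ stdR hω) ∧ bd r ∈ N9 hω ∧ ∃ s, k = Δ h * bd r * sc I9 s := by
  obtain ⟨b, rfl⟩ := exists_bd hω e
  obtain ⟨h, hh, r, hr, s, e0⟩ := N3_struct hω (c.blk_mem hk 0)
  obtain ⟨b', rfl⟩ : ∃ b', b = (fun _ => h * r) * b' := ⟨_, (mul_inv_cancel_left _ b).symm⟩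
  replace e0 : b' 0 = sc (Fin 3) s := mul_left_cancel (a := h * r) e0
  rw [map_mul] at hk ⊢
  have h1 := (mul_mem_cancel_left (c.Δ_mem (mul_mem (H4_le hω hh) (stdR_le_Hs hω hr)))).1 hk
  obtain ⟨a, a', e1⟩ := pr_of_act hω (c.act_blk h1 e0)
  obtain ⟨r1, hr1, t, e1, -⟩ := split_pr hω e1
  obtain ⟨b, rfl⟩ : ∃ b, b' = ![1, r1, tS F * r1 * (tS F)⁻¹] * b := ⟨_, (mul_inv_cancel_left _ b').symm⟩
  replace e0 : b 0 = sc (Fin 3) s := (one_mul _).symm.trans e0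
  replace e1 : b 1 = sc (Fin 3) t := mul_left_cancel (a := r1) e1
  rw [map_mul] at h1 ⊢
  have h2 := (mul_mem_cancel_left (c.β_mem hr1)).1 h1
  obtain ⟨v, e2⟩ := c.scalar_of (y := b 2) (s := s) (t := t)
    ((congrArg (bd · ∈ X) (funext fun j => by fin_cases j; exacts [rfl, e0, e1])).mp (c.shift h2 1))
  obtain rfl : b = fun j => sc (Fin 3) (![s, t, v] j) := by
    ext1 j
    fin_cases j
    exacts [e0, e1, e2.symm]
  obtain ⟨f, hf⟩ := c.exists_wp h2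
  refine ⟨h, hh, (fun _ => r) * ![1, r1, tS F * r1 * (tS F)⁻¹] * fun j => sc (Fin 3) (wp hω (f j)), fun j => ?_,
    ?_, s, ?_⟩
  · rw [Pi.mul_apply, Pi.mul_apply]
    refine mul_mem (mul_mem hr ?_) ((sc_mem_stdR hω).2 (wp_cube hω _))
    fin_cases j
    exacts [one_mem _, hr1, (mem_normalizer_iff.1 (Hs_le_N3 hω (H4_le hω (tS_H4 hω))) _).1 hr1]
  · rw [map_mul, map_mul, bd_wp]
    exact mul_mem (mul_mem (Δ_mem_N9 hω (le_normalizer hr)) (β_mem_N9 hω hr1)) (NG.mem_N9 hω (ng_snd f))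
  · rw [← Δ_sc, Δ_eq, Δ_eq, ← map_mul, ← map_mul, ← map_mul, ← map_mul]
    refine congrArg _ (funext fun j => ?_)
    rw [Pi.mul_apply, Pi.mul_apply, Pi.mul_apply, Pi.mul_apply, Pi.mul_apply, Pi.mul_apply, hf j, map_mul,
      sc_comm (wp hω (f j))]
    simp only [mul_assoc]
    rfl

theorem cent_a (hk : k ∈ X) (e : k * mon hω aM = mon hω aM * k) : k ∈ N9 hω := by
  obtain ⟨h, hh, r, -, hr, s, rfl⟩ := c.cent_a_struct hk e
  exact mul_mem (mul_mem (Δ_mem_N9 hω (Hs_le_N3 hω (H4_le hω hh))) hr) (sc_mem_N9 hω s)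

end Ctx

end CfsgLib.C9
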