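import Mathlib
import Cfsg.Agent.Lib.C9.Loc1
import Cfsg.Agent.Lib.C9.End

/-! The centraliser of the involution `1 ⊗ tS` (plans/C9.md). -/

set_option autoImplicit false

namespace CfsgLib.C9

open Matrix Subgroup Equiv Cfsg Cfsg.Geo CfsgLib.Asch CfsgLib.Mit CfsgLib.Mit.Gm

variable {F : Type*} [Field F] {ω : F} {hω : Om ω} {u : Prop} {ψ : F →+* F} {X : Subgroup (G9 F)}
  {k l : G9 F} {b : Fin 3 → G3 F} {y g h : G3 F}

/-- the involution `1 ⊗ tS` -/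
abbrev sM : Mo := pM ((Equiv.refl _).prodCongr (Equiv.neg _))

/-- the embedding `v ↦ v ⊗ w` -/
def JW (w : Fin 3 → F) : Matrix I9 (Fin 3) F := of fun p j => if p.1 = j then w p.2 else 0

theorem JW_mul (v w : Fin 3 → F) : (JW v)ᵀ * JW w = (v ⬝ᵥ w) • (1 : M3 F) := by
  ext i j
  by_cases e : i = j
  · simp [JW, Matrix.mul_apply, Fintype.sum_prod_type, e, dotProduct]
  · simp [JW, Matrix.mul_apply, Fintype.sum_prod_type, e, Ne.symm e]

/-- the image of `1 + s` -/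
abbrev JA (F : Type*) [Field F] : Matrix I9 (Fin 3) F := JW ![0, 1, -1]

abbrev JB (F : Type*) [Field F] : Matrix I9 (Fin 3) F := JW ![0, 1, 0]

theorem JB_JA : (JB F)ᵀ * JA F = 1 := by simp [JW_mul]

theorem JA_JB : (JA F)ᵀ * JB F = 1 := by simp [JW_mul]

theorem JA_JA (hω : Om ω) : JA F * (JA F)ᵀ = 1 + (mon hω sM : M9 F) := by
  rw [mon_pM, sg_eq_neg (by decide)]
  ext ⟨i, a⟩ ⟨j, c⟩
  by_cases e : i = j
  · fin_cases a <;> fin_cases c <;> simp [JW, Matrix.mul_apply, mn_apply, e] <;> decide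
  · simp [JW, Matrix.mul_apply, mn_apply, e]

/-- `k` centralises `s` and acts on the image of `1 + s` as `g` -/
structure Rs (hω : Om ω) (k : G9 F) (g : G3 F) : Prop where
  comm : k * mon hω sM = mon hω sM * k
  res : k.1 * JA F = JA F * g.1

theorem res_eq (e : k * mon hω sM = mon hω sM * k) : k.1 * JA F = JA F * ((JA F)ᵀ * k.1 * JB F) := by
  have e' : k.1 * (JA F * (JA F)ᵀ) = JA F * (JA F)ᵀ * k.1 := by
    rw [JA_JA hω, mul_add, add_mul, mul_one, one_mul, ← Units.val_mul, e, Units.val_mul]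
  rw [← Matrix.mul_assoc, ← Matrix.mul_assoc, ← e', Matrix.mul_assoc, Matrix.mul_assoc, JA_JB, Matrix.mul_one]

theorem JA_cancel {U V : M3 F} (e : JA F * U = JA F * V) : U = V := by
  simpa [← Matrix.mul_assoc, JB_JA] using congrArg ((JB F)ᵀ * ·) e

theorem exists_rs (e : k * mon hω sM = mon hω sM * k) : ∃ g, Rs hω k g := by
  have e1 := res_eq e
  have e2 := res_eq (k := k⁻¹) (Commute.inv_left e)
  have e3 : (JA F)ᵀ * k.1 * JB F * ((JA F)ᵀ * (k⁻¹).1 * JB F) = 1 := JA_cancel (by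
    rw [← Matrix.mul_assoc, ← e1, Matrix.mul_assoc, ← e2, ← Matrix.mul_assoc, Units.mul_inv, Matrix.one_mul,
      Matrix.mul_one])
  exact ⟨⟨_, _, e3, mul_eq_one_comm.1 e3⟩, e, e1⟩

theorem Rs.unique (h1 : Rs hω k g) (h2 : Rs hω k h) : g = h := Units.ext (JA_cancel (h1.res.symm.trans h2.res))

theorem Rs.mul (h1 : Rs hω k g) (h2 : Rs hω l h) : Rs hω (k * l) (g * h) :=
  ⟨Commute.mul_left h1.comm h2.comm, by
    rw [Units.val_mul, Units.val_mul, Matrix.mul_assoc, h2.res, ← Matrix.mul_assoc, h1.res, Matrix.mul_assoc]⟩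

theorem rs_one : Rs hω 1 1 := ⟨by simp, by simp⟩

theorem Rs.inv (h1 : Rs hω k g) : Rs hω k⁻¹ g⁻¹ := by
  obtain ⟨h, h2⟩ := exists_rs (k := k⁻¹) (Commute.inv_left h1.comm)
  rwa [inv_eq_of_mul_eq_one_right ((h1.mul h2).unique (by simpa using rs_one))]

theorem Rs.mem_UG (h1 : Rs hω k g) (hk : k ∈ UG I9 u ψ) : g ∈ UG (Fin 3) u ψ := fun hu => by
  have m : ∀ w : Fin 3 → F, (∀ i, ψ (w i) = w i) → (JW w).map ψ = JW w := fun w hw => by
    ext p j
    simp only [JW, map_apply, of_apply]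
    split_ifs <;> simp [hw]
  have e : g.1.map ψ = (JA F)ᵀ * (k.1.map ψ * JB F) := by
    rw [JA_cancel (h1.res.symm.trans (res_eq h1.comm)), Matrix.map_mul, Matrix.map_mul, transpose_map,
      m _ fun i => by fin_cases i <;> simp, m _ fun i => by fin_cases i <;> simp, Matrix.mul_assoc]
  rw [e, ← Matrix.mul_assoc, ← transpose_mul, ← h1.res, transpose_mul, Matrix.mul_assoc, ← Matrix.mul_assoc _ _ (JB F),
    hk hu, Matrix.one_mul, JA_JB]

theorem rs_Δ (h : G3 F) : Rs hω (Δ h) h := by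
  refine ⟨(mul_inv_eq_iff_eq_mul.1 (Units.ext ?_)).symm, ?_⟩
  · rw [conj_pM]
    ext ⟨i, j⟩ ⟨k, l⟩
    simp [Δ_eq, coe_bd, blockDiagonal_apply]
  · ext ⟨i, a⟩ j
    simp [Δ_eq, coe_bd, blockDiagonal_apply, JW, Matrix.mul_apply, Fintype.sum_prod_type, mul_comm]

theorem Δ_inj : Function.Injective (Δ (F := F)) := fun _ _ e => congrFun (bd_inj e) 0

/-- the elements of `R` centralising `s` -/
theorem exists_Δ (hk : k ∈ R0 hω) (e : k * mon hω sM = mon hω sM * k) : ∃ r ∈ stdR hω, k = Δ r := by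
  obtain ⟨a, v, w, rfl⟩ := (mem_R0 hω).1 hk
  rw [← map_mul, ← map_mul] at e
  obtain ⟨e1, e2⟩ := (by decide +kernel : ∀ a v w, Wm a v w * sM = sM * Wm a v w → v.2 = 0 ∧ w.2 = 0) a v w
    (mon_inj hω e)
  refine ⟨sc (Fin 3) (wU hω) ^ a.val * yS F ^ v.1.val * xS hω ^ w.1.val, mul_mem (mul_mem (pow_mem
    ((sc_mem_stdR hω).2 (wU_cube hω)) _) (pow_mem (yS_mem hω) _)) (pow_mem (xS_mem hω) _), ?_⟩
  simp only [Wm_eq a v w, map_mul, map_pow, e1, e2, Fin.val_zero, pow_zero, mul_one, Δ_sc, Δ_xS, Δ_yS hω, mon_oM]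

theorem Rs.conj (h1 : Rs hω k g) (hk : k ∈ N9 hω) (hy : y ∈ stdR hω) :
    g * y * g⁻¹ ∈ stdR hω ∧ k * Δ y * k⁻¹ = Δ (g * y * g⁻¹) := by
  have h2 := (h1.mul (rs_Δ y)).mul h1.inv
  obtain ⟨r, hr, e⟩ := exists_Δ ((mem_normalizer_iff.1 hk _).1 (Δ_mem_R0 hω hy)) h2.comm
  rw [h2.unique (e ▸ rs_Δ r)]
  exact ⟨hr, e⟩

theorem Rs.eq_one (h1 : Rs hω k 1) {w : G9 F} (hw : w ∈ R0 hω) {s : Fˣ} (e : k = w * sc I9 s) : k = 1 := by
  obtain ⟨r, -, rfl⟩ := exists_Δ hw (by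
    have := h1.comm
    rwa [e, mul_assoc, ← sc_comm9, ← mul_assoc, ← mul_assoc, mul_left_inj] at this)
  rw [← Δ_sc, ← map_mul] at e
  have := (rs_Δ (r * sc _ s)).unique (e ▸ h1)
  rw [e, this, map_one]

/-- the action on the second tensor factor -/
def Γ (hω : Om ω) : G3 F →* G9 F := (MulAut.conj (mon hω swM)).toMonoidHom.comp Δ

theorem Γ_eq (h : G3 F) : Γ hω h = mon hω swM * Δ h * (mon hω swM)⁻¹ := rfl

theorem Γ_apply (h : G3 F) (p q : I9) : (Γ hω h).1 p q = if p.1 = q.1 then h.1 p.2 q.2 else 0 := by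
  rw [Γ_eq, conj_pM]
  simp [Δ_eq, coe_bd, blockDiagonal_apply]

theorem Γ_inj : Function.Injective (Γ hω) := (MulAut.conj _).injective.comp Δ_inj

theorem Γ_tS : Γ hω (tS F) = mon hω sM := by
  rw [Γ_eq, show Δ (tS F) = mon hω (swM⁻¹ * sM * swM) from bd_eq_mon hω (f := 0) (π := fun _ => Equiv.neg _)
    (s := -1) (fun _ => by simp [tS_eq, wp_zero]) (sg_eq_neg (by decide)) (by decide), mon_conj]
  exact congrArg _ (by group)

theorem rs_Γ (hh : h ∈ H4 hω) : Rs hω (Γ hω h) 1 := by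
  refine ⟨by rw [← Γ_tS, ← map_mul, H4_comm hω hh, map_mul], ?_⟩
  have e : h ∈ MulAction.stabilizer (G3 F) (![0, 1, -1] : Fin 3 → F) := by
    refine (H4_le_iff hω).2 ⟨?_, ?_⟩ hh <;> rw [MulAction.mem_stabilizer_iff] <;> ext i
    · have h1 := hω.th1
      have h2 := hω.th2
      fin_cases i <;> simp [Units.smul_def, coe_fS, VS] <;> grind
    · fin_cases i <;> simp [Units.smul_def, dS, coe_dg]
  ext ⟨i, a⟩ j
  have := congrFun (MulAction.mem_stabilizer_iff.1 e) a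
  simp only [Units.smul_def, smul_eq_mulVec, mulVec, dotProduct] at this
  by_cases e : i = j <;> simp [Γ_apply, JW, Matrix.mul_apply, Fintype.sum_prod_type, this, e, Matrix.one_apply]

theorem exists_Γ (h1 : k * Δ (xS hω) = Δ (xS hω) * k) (h2 : k * Δ (yS F) = Δ (yS F) * k) : ∃ h, k = Γ hω h := by
  have cj : ∀ m n : Mo, k * mon hω m = mon hω m * k → swM⁻¹ * m * swM = n →
      (mon hω swM)⁻¹ * k * mon hω swM * mon hω n = mon hω n * ((mon hω swM)⁻¹ * k * mon hω swM) := fun m n e e' => by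
    simp only [← e', map_mul, map_inv, mul_assoc, mul_inv_cancel_left, mul_right_inj]
    rw [← mul_assoc, e, mul_assoc]
  obtain ⟨b, hb⟩ := exists_bd hω (cj _ aM (Δ_xS hω ▸ h1) (by decide))
  have h3 := cj _ (pM (Equiv.addRight (0, 1))) (Δ_yS hω ▸ h2) (by decide)
  rw [hb, eq_comm, ← mul_inv_eq_iff_eq_mul, Units.ext_iff, conj_pM] at h3
  have h4 : ∀ j, b (j - 1) = b j := fun j => Units.ext (by
    ext p q
    simpa [coe_bd, blockDiagonal_apply, sub_eq_add_neg] using congrFun (congrFun h3 (p, j)) (q, j))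
  refine ⟨b 0, ?_⟩
  rw [Γ_eq, Δ_eq, show (fun _ => b 0) = b from funext fun j => by
    fin_cases j
    exacts [rfl, h4 1, (h4 0).symm], ← hb]
  group

variable [Finite F]

theorem Rs.mem_N3 (h1 : Rs hω k g) (hk : k ∈ N9 hω) : g ∈ N3 hω :=
  mem_normalizer_fintype fun _ hy => (h1.conj hk hy).1

namespace Ctx

variable (c : Ctx hω u ψ X)
include c

omit [Finite F] in
theorem Γ_mem : Γ hω h ∈ X ↔ Δ h ∈ X := by
  have := c.mon_mem (m := swM) (by decide)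
  rw [Γ_eq, mul_mem_cancel_right (inv_mem this), mul_mem_cancel_left this]

theorem cent_x (hk : k ∈ X) (e : k * Δ (xS hω) = Δ (xS hω) * k) : k ∈ N9 hω := by
  have h1 := c.mon_mem (m := swM) (by decide)
  have h2 := NG.mem_N9 hω (m := swM) (by decide)
  have := c.cent_a (mul_mem (mul_mem h1 hk) (inv_mem h1)) (by
    rw [show aM = swM * x1M * swM⁻¹ by decide, ← mon_conj, ← Δ_xS, conj_mul, conj_mul, e])
  rwa [mul_mem_cancel_right (inv_mem h2), mul_mem_cancel_left h2] at this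

theorem cent_r (hk : k ∈ X) {a d : ZMod 3} (hy : Pr ω y.1 a d) (h0 : ¬ (a = 0 ∧ d = 0))
    (e : k * Δ y = Δ y * k) : k ∈ N9 hω := by
  obtain ⟨p, q, r, s, e1, e2, e3⟩ := (by decide : ∀ a d : ZMod 3, ¬ (a = 0 ∧ d = 0) →
    ∃ p q r s : ZMod 3, p * s - q * r = 1 ∧ p * a + q * d = 1 ∧ r * a + s * d = 0) a d h0
  obtain ⟨h, hh, e4⟩ := exists_H4 hω (A := !![p, q; r, s]) (by rw [det_fin_two_of, e1])
  obtain ⟨t, ht⟩ := (act_conj e4 hy).congr (c := 1) (d := 0) e2 e3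
  obtain ⟨t, ht⟩ := mem_scalars_of_eq_smul (g := h * y * h⁻¹ * (xS hω)⁻¹) (c := t) (by
    rw [Units.val_mul, ht, EE_X, smul_mul_assoc]
    exact congrArg _ (xS hω).mul_inv)
  have h1 := c.Δ_mem (H4_le hω hh)
  have h2 := Δ_mem_N9 hω (Hs_le_N3 hω (H4_le hω hh))
  have h3 : Δ (xS hω) = (sc I9 t)⁻¹ * (Δ h * Δ y * (Δ h)⁻¹) := by
    rw [← Δ_sc, show sc (Fin 3) t = _ from ht]
    simp [mul_assoc]
  have := c.cent_x (mul_mem (mul_mem h1 hk) (inv_mem h1)) (by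
    rw [h3, ← map_inv (sc I9)]
    exact Commute.mul_right (sc_comm9 _ _) (Commute.conj e _))
  rwa [mul_mem_cancel_right (inv_mem h2), mul_mem_cancel_left h2] at this

end Ctx

/-- the kernel of the action on the image of `1 + s` -/
def KS (hω : Om ω) (X : Subgroup (G9 F)) : Subgroup (G9 F) where
  carrier := {k | k ∈ X ∧ Rs hω k 1}
  mul_mem' a b := ⟨mul_mem a.1 b.1, by simpa using a.2.mul b.2⟩
  one_mem' := ⟨one_mem _, rs_one⟩
  inv_mem' a := ⟨inv_mem a.1, by simpa using a.2.inv⟩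

omit [Finite F] in
theorem KS_conj (hl : l ∈ X) (h1 : Rs hω l g) (hk : k ∈ KS hω X) : l * k * l⁻¹ ∈ KS hω X :=
  ⟨mul_mem (mul_mem hl hk.1) (inv_mem hl), by simpa using (h1.mul hk.2).mul h1.inv⟩

omit [Finite F] in
theorem KS_comm (hk : k ∈ KS hω X ⊓ N9 hω) (hy : y ∈ stdR hω) : k * Δ y = Δ y * k :=
  mul_inv_eq_iff_eq_mul.1 (by simpa using (hk.1.2.conj hk.2 hy).2)

omit [Finite F] in
theorem eq_one_of_act (hk : Γ hω h ∈ KS hω X) (e : Act ω h 1) : h = 1 := by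
  obtain ⟨a, d, e1⟩ := pr_of_act hω e
  obtain ⟨r, hr, s, rfl, -⟩ := split_pr hω e1
  refine Γ_inj (hω := hω) ((hk.2.eq_one (w := Γ hω r) (s := s) ((mem_normalizer_iff.1
    (NG.mem_N9 hω (m := swM) (by decide)) _).1 (Δ_mem_R0 hω hr)) ?_).trans (map_one _).symm)
  rw [map_mul, Γ_eq (sc _ s), Δ_sc, sc_comm9, mul_inv_cancel_right]

namespace Ctx

variable (c : Ctx hω u ψ X)
include c

theorem Γ_N3 (hk : Γ hω h ∈ X) : h ∈ N3 hω := c.blk_mem (b := fun _ => h) (c.Γ_mem.1 hk) 0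

theorem Γ_KS (hh : h ∈ H4 hω) : Γ hω h ∈ KS hω X ⊓ N9 hω :=
  have := NG.mem_N9 hω (m := swM) (by decide)
  ⟨⟨c.Γ_mem.2 (c.Δ_mem (H4_le hω hh)), rs_Γ hh⟩,
    Subgroup.mul_mem _ (Subgroup.mul_mem _ this (Δ_mem_N9 hω (Hs_le_N3 hω (H4_le hω hh)))) (Subgroup.inv_mem _ this)⟩

theorem not_nine : ¬ 9 ∣ Nat.card (KS hω X ⊓ N9 hω : Subgroup _) := by
  set H := (KS hω X ⊓ N9 hω).comap (Γ hω)
  have e : KS hω X ⊓ N9 hω = H.map (Γ hω) := (map_comap_eq_self fun k hk => by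
    obtain ⟨h, rfl⟩ := exists_Γ (KS_comm hk (xS_mem hω)) (KS_comm hk (yS_mem hω))
    exact ⟨h, rfl⟩).symm
  choose A hA using fun h : H => exists_act hω (c.Γ_N3 h.2.1.1)
  let φ : H →* GL (Fin 2) (ZMod 3) := MonoidHom.toHomUnits
    { toFun := A
      map_one' := (hA 1).unique hω act_one
      map_mul' a b := (hA _).unique hω ((hA a).mul (hA b)) }
  have hφ : Function.Injective φ := (injective_iff_map_eq_one φ).2 fun a ha =>
    Subtype.ext (eq_one_of_act a.2.1 ((show A a = 1 from congrArg Units.val ha) ▸ hA a))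
  have : Fact (Nat.Prime 3) := ⟨Nat.prime_three⟩
  have h48 := card_dvd_of_injective φ hφ
  rw [card_GL_field] at h48
  rw [e, card_map_of_injective Γ_inj]
  exact fun h => absurd (h.trans h48) (by simp)

theorem KS_le : KS hω X ≤ KS hω X ⊓ N9 hω := by
  have : Finite (G9 F) := Finite.of_injective _ Units.val_injective
  choose r hr er using exists_pr hω
  have h3 : dS hω ^ 3 = 1 := by
    rw [dS, pow_three, dg_mul, dg_mul, ← pow_three, wU_cube hω, mul_one, mul_one, dg_one]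
  have : Fact (Nat.Prime 3) := ⟨Nat.prime_three⟩
  refine le_of_fix' (Z := scalars I9 F) (fun _ h g => mul_comm_of_mem_scalars h g) ?_ (fun a => Δ (r a.1 a.2))
    (fun a b => ?_) (fun a h => ?_) (fun a k hk => KS_conj (c.Δ_mem (stdR_le_Hs hω (hr _ _))) (rs_Δ _) hk)
    inf_le_left (fun a k hk => (KS_comm hk (hr _ _)).symm)
    (fun a h k hk e => ⟨hk, c.cent_r hk.1 (er _ _ ▸ pr_EE a.1 a.2) (fun e => h (Prod.ext e.1 e.2)) e.symm⟩)
    c.not_nine (c.Γ_KS (dS_H4 hω)) (orderOf_eq_prime (by rw [← map_pow, h3, map_one]) fun e => ?_) fun g _ e => ?_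
  · rintro _ hk ⟨s, rfl⟩
    exact hk.2.eq_one (one_mem _) (one_mul _).symm
  · obtain ⟨s, hs⟩ := pr_scalar (ω := ω) (g := (r (a + b).1 (a + b).2)⁻¹ * (r a.1 a.2 * r b.1 b.2)) (by
      rw [Units.val_mul, Units.val_mul]
      exact ((pr_inv hω (er _ _ ▸ pr_EE _ _)).mul hω ((er _ _ ▸ pr_EE a.1 a.2).mul hω
        (er _ _ ▸ pr_EE b.1 b.2))).congr (by simp) (by simp))
    exact ⟨s, by rw [← map_inv, ← map_mul, ← map_mul, ← hs]; exact (Δ_sc s).symm⟩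
  · obtain ⟨s, hs⟩ := h
    have := pr_zero hω (g := r a.1 a.2) ⟨s, Δ_inj ((Δ_sc s).trans hs)⟩ (er _ _ ▸ pr_EE a.1 a.2)
    exact Prod.ext this.1 this.2
  · have := congrArg (fun g : G9 F => g.1 0 0) e
    simp [Γ_apply, dS, coe_dg] at this
    exact hω.ne_one this
  · have e1 := trace_cj g (Γ hω (dS hω)).1
    rw [cj_coe, e, ← map_inv, dS, dg_inv] at e1
    simp [trace, Γ_apply, coe_dg, Fintype.sum_prod_type, Fin.sum_univ_three] at e1
    have h4 : ω⁻¹ = ω := e1.resolve_right hω.three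
    exact hω.sq_ne_one (by rw [sq]; nth_rewrite 1 [← h4]; exact inv_mul_cancel₀ hω.ne_zero)

theorem mem_of_comm (hk : k ∈ X) (h1 : Rs hω k g) (e : g * xS hω = xS hω * g) : k ∈ N9 hω := by
  have hx := c.Δ_mem (stdR_le_Hs hω (xS_mem hω))
  have h2 : k * Δ (xS hω) * k⁻¹ * (Δ (xS hω))⁻¹ ∈ KS hω X :=
    ⟨mul_mem (mul_mem (mul_mem hk hx) (inv_mem hk)) (inv_mem hx), by
      simpa [e] using ((h1.mul (rs_Δ (xS hω))).mul h1.inv).mul (rs_Δ (xS hω)).inv⟩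
  have h3 := fun y => KS_comm (y := y) (c.KS_le h2)
  obtain ⟨h, hh⟩ := exists_Γ (h3 _ (xS_mem hω)) (h3 _ (yS_mem hω))
  have hf := (c.Γ_KS (fS_H4 hω)).1
  have h4 : Γ hω h * Γ hω (fS hω) = Γ hω (fS hω) * Γ hω h := by
    have a1 : Commute (Γ hω (fS hω)) (Δ (xS hω)) := KS_comm (c.KS_le hf) (xS_mem hω)
    have a2 : Commute (k⁻¹ * Γ hω (fS hω) * k⁻¹⁻¹) (Δ (xS hω)) :=
      KS_comm (c.KS_le (KS_conj (inv_mem hk) h1.inv hf)) (xS_mem hω)
    have a3 : Commute (Γ hω (fS hω)) (k * Δ (xS hω) * k⁻¹) := by simpa [mul_assoc] using a2.conj k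
    exact (hh ▸ a3.mul_right a1.inv_right).symm
  have h5 : Γ hω h ^ 3 = 1 := by
    have a1 : (Γ hω h * Δ (xS hω)) ^ 3 = 1 := by
      rw [← hh, inv_mul_cancel_right, conj_pow, ← map_pow, cube_stdR hω (xS_mem hω)]
      simp
    rwa [Commute.mul_pow (hh ▸ h3 _ (xS_mem hω)), ← map_pow Δ, cube_stdR hω (xS_mem hω), map_one, mul_one] at a1
  rw [← map_mul, ← map_mul] at h4
  rw [← map_pow, ← map_one (Γ hω)] at h5
  obtain ⟨A, hA⟩ := exists_act hω (c.Γ_N3 (hh ▸ h2.1))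
  have a1 := (hA.mul (act_fS hω)).unique hω (Γ_inj h4 ▸ (act_fS hω).mul hA)
  have a2 := (hA.pow 3).unique hω (Γ_inj h5 ▸ act_one)
  rw [eta_fin_two A] at a1 a2 hA
  rw [(by decide +kernel : ∀ a b c d : ZMod 3, !![a, b; c, d] * !![0, 1; 2, 0] = !![0, 1; 2, 0] * !![a, b; c, d] →
    !![a, b; c, d] ^ 3 = 1 → !![a, b; c, d] = 1) _ _ _ _ a1 a2] at hA
  rw [eq_one_of_act (hh ▸ h2) hA, map_one, mul_inv_eq_one, mul_inv_eq_iff_eq_mul] at hh
  exact c.cent_x hk hh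

theorem cent_s (hk : k ∈ X) (e : k * mon hω sM = mon hω sM * k) : k ∈ N9 hω := by
  let Y : Subgroup (G3 F) :=
    { carrier := {g | ∃ k ∈ X, Rs hω k g}
      mul_mem' := fun ⟨_, a, b⟩ ⟨_, c, d⟩ => ⟨_, mul_mem a c, b.mul d⟩
      one_mem' := ⟨1, one_mem _, rs_one⟩
      inv_mem' := fun ⟨_, a, b⟩ => ⟨_, inv_mem a, b.inv⟩ }
  obtain ⟨g, hg⟩ := exists_rs e
  rcases c.mit Y (fun _ ⟨_, a, b⟩ => b.mem_UG (c.le a).1)
    ((show Hs hω ≤ Y from fun h hh => ⟨_, c.Δ_mem hh, rs_Δ h⟩).trans le_normalizer) with h | ⟨h, h2⟩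
  · obtain ⟨h, hh, r, hr, s, rfl⟩ := N3_struct hω (h ⟨k, hk, hg⟩)
    have h1 := mul_mem (H4_le hω hh) (stdR_le_Hs hω hr)
    exact (mul_mem_cancel_left (inv_mem (Δ_mem_N9 hω (Hs_le_N3 hω h1)))).1
      (c.mem_of_comm (mul_mem (inv_mem (c.Δ_mem h1)) hk) ((rs_Δ _).inv.mul hg) (by
        rw [inv_mul_cancel_left, sc_comm]))
  · obtain ⟨l, hl, h3⟩ := h (x := dg (-1) (-1) 1) ⟨dg_eq (-1 : Fˣ) (-1) 1 ▸ mn_mem_UG.2 fun _ q => by
      fin_cases q <;> simp, mem_specialLinear.2 (by simp [det_dg])⟩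
    have := congrArg Units.val (dg_mem_N3 hω (h3.mem_N3 (c.mem_of_comm hl h3 (Units.ext (by
      simp [coe_dg, xS, coe_gl, XS]))))).2
    simp only [Units.val_pow_eq_pow_val, Units.val_neg, Units.val_one] at this
    exact absurd (by linear_combination -this) h2

end Ctx

end CfsgLib.C9
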