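import Cfsg.Agent.Lib.C9.Defs

/-! The centraliser of the transvection `τ` and of the involution `z` (plans/C9.md). -/

set_option autoImplicit false

namespace CfsgLib.C9

open Matrix Subgroup Equiv Cfsg Cfsg.Geo CfsgLib.Asch CfsgLib.Mit CfsgLib.Mit.Gm

variable {F : Type*} [Field F] {ω : F} (hω : Om ω) {u : Prop} {ψ : F →+* F} {g k l : G9 F} {h : G3 F} {ε : F}

/-- restriction to an invariant coordinate subspace -/
def resH {ι : Type} [Fintype ι] [DecidableEq ι] (K : Subgroup (G9 F)) (f : ι → I9) (hf : Function.Injective f)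
    (hK : ∀ k ∈ K, ∀ i q, (∀ j, f j ≠ q) → (k : M9 F) (f i) q = 0) : K →* GL ι F := MonoidHom.toHomUnits
  { toFun k := (k.1 : M9 F).submatrix f f
    map_one' := submatrix_one _ hf
    map_mul' k l := by
      ext i j
      rw [submatrix_apply, Subgroup.coe_mul, Units.val_mul, Matrix.mul_apply, Matrix.mul_apply]
      refine (Finset.sum_of_injOn f hf.injOn (by simp) (fun q _ n => ?_) fun _ _ => rfl).symm
      rw [hK k k.2 i q fun j e => n ⟨j, by simp, e⟩, zero_mul] }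

theorem neg12 : (-1 : Fin 3) = 2 ∧ (-2 : Fin 3) = 1 := by decide

theorem sum9 (f : I9 → F) : ∑ r, f r = ∑ i, f (i, 0) + ∑ i, f (i, 1) + ∑ i, f (-i, 2) := by
  rw [Fintype.sum_prod_type_right, Fin.sum_univ_three, ← Equiv.sum_comp (Equiv.neg (Fin 3)) fun i => f (i, 2)]
  rfl

theorem tau_zero (e : k * mon hω tM = mon hω tM * k) {p q : I9} (n : tM.f p ≠ tM.f q) : (k : M9 F) p q = 0 := by
  rw [mon_dM] at e
  exact apply_eq_zero e fun e => n (wp_inj hω e)

theorem comm_z : k * mon hω zM = mon hω zM * k ↔ ∀ p q, (k : M9 F) (-p) (-q) = (k : M9 F) p q := by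
  rw [eq_comm, ← mul_inv_eq_iff_eq_mul, Units.ext_iff, conj_pM, ← Matrix.ext_iff]
  rfl

/-- the centraliser of `τ` and `z` -/
def CT : Subgroup (G9 F) := centralizer {mon hω tM} ⊓ centralizer {mon hω zM}

theorem mem_CT : k ∈ CT hω ↔ k * mon hω tM = mon hω tM * k ∧ k * mon hω zM = mon hω zM * k :=
  and_congr mem_centralizer_singleton_iff mem_centralizer_singleton_iff

theorem mon_mem_CT {m : Mo} (e : m * tM = tM * m ∧ m * zM = zM * m) : mon hω m ∈ CT hω :=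
  (mem_CT hω).2 ⟨by rw [← map_mul, e.1, map_mul], by rw [← map_mul, e.2, map_mul]⟩

/-- the block on the fixed space of `τ` -/
def p0 (k : G9 F) : M3 F := of fun i j => (k : M9 F) (i, 0) (j, 0)

def pA (k : G9 F) : M3 F := of fun i j => (k : M9 F) (i, 1) (j, 1)

def pB (k : G9 F) : M3 F := of fun i j => (k : M9 F) (i, 1) (-j, 2)

variable {hω}

theorem CT_zero (hk : k ∈ CT hω) (i j : Fin 3) : (k : M9 F) (i, 0) (j, 1) = 0 ∧ (k : M9 F) (i, 0) (j, 2) = 0 ∧
    (k : M9 F) (i, 1) (j, 0) = 0 ∧ (k : M9 F) (i, 2) (j, 0) = 0 := by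
  refine ⟨?_, ?_, ?_, ?_⟩ <;> exact tau_zero hω ((mem_CT hω).1 hk).1 (by simp)

theorem CT_neg (hk : k ∈ CT hω) (i j : Fin 3) : (k : M9 F) (-i, 2) (j, 1) = pB k i j ∧
    (k : M9 F) (-i, 2) (-j, 2) = pA k i j :=
  ⟨((comm_z hω).1 ((mem_CT hω).1 hk).2 _ _).symm.trans (by simp [pB, neg12]),
    ((comm_z hω).1 ((mem_CT hω).1 hk).2 _ _).symm.trans (by simp [pA, neg12])⟩

theorem p0_mul (hk : k ∈ CT hω) (l : G9 F) : p0 (k * l) = p0 k * p0 l := by
  ext i j
  simp [p0, Matrix.mul_apply, sum9, CT_zero hk]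

theorem pA_mul (hk : k ∈ CT hω) (hl : l ∈ CT hω) : pA (k * l) = pA k * pA l + pB k * pB l := by
  ext i j
  rw [pA, of_apply, Units.val_mul, Matrix.mul_apply, sum9]
  simp only [CT_zero hk, CT_neg hl, zero_mul, Finset.sum_const_zero, zero_add]
  rfl

theorem pB_mul (hk : k ∈ CT hω) (hl : l ∈ CT hω) : pB (k * l) = pA k * pB l + pB k * pA l := by
  ext i j
  rw [pB, of_apply, Units.val_mul, Matrix.mul_apply, sum9]
  simp only [CT_zero hk, CT_neg hl, zero_mul, Finset.sum_const_zero, zero_add]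
  rfl

theorem CT_ext (hk : k ∈ CT hω) (hl : l ∈ CT hω) (h0 : p0 k = p0 l) (hA : pA k = pA l) (hB : pB k = pB l) :
    k = l := Units.ext (by
  ext ⟨i, a⟩ ⟨j, b⟩
  have e0 : (k : M9 F) (i, 0) (j, 0) = (l : M9 F) (i, 0) (j, 0) := congrFun (congrFun h0 i) j
  have e1 : (k : M9 F) (i, 1) (j, 1) = (l : M9 F) (i, 1) (j, 1) := congrFun (congrFun hA i) j
  have e2 : (k : M9 F) (i, 1) (- -j, 2) = (l : M9 F) (i, 1) (- -j, 2) := congrFun (congrFun hB i) (-j)
  have e5 := (CT_neg hk (-i) (-j)).2.trans (hA ▸ (CT_neg hl (-i) (-j)).2.symm)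
  have e6 := (CT_neg hk (-i) j).1.trans (hB ▸ (CT_neg hl (-i) j).1.symm)
  simp only [neg_neg] at e2 e5 e6
  fin_cases a <;> fin_cases b <;> simp [e0, e1, e2, e5, e6, CT_zero hk, CT_zero hl])

theorem p_bd (b : Fin 3 → G3 F) : p0 (bd b) = b 0 ∧ pA (bd b) = b 1 ∧ pB (bd b) = 0 := by
  refine ⟨?_, ?_, ?_⟩ <;> ext i j <;> simp [p0, pA, pB, coe_bd, blockDiagonal_apply]

theorem p_one : p0 (1 : G9 F) = 1 ∧ pA (1 : G9 F) = 1 ∧ pB (1 : G9 F) = 0 := map_one (bd (F := F)) ▸ p_bd 1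

theorem p_z : p0 (mon hω zM) = -tS F ∧ pA (mon hω zM) = 0 ∧ pB (mon hω zM) = 1 := by
  rw [mon_pM, sg_eq_one (by decide), tS_eq]
  refine ⟨?_, ?_, ?_⟩ <;> ext i j <;> simp [p0, pA, pB, mn_apply, Matrix.one_apply, neg12]
  split_ifs <;> simp

theorem bd_mem_CT {b : Fin 3 → G3 F} (h0 : b 0 * tS F = tS F * b 0) (h2 : b 2 = tS F * b 1 * (tS F)⁻¹) :
    bd b ∈ CT hω := by
  have k : ∀ (g : G3 F) i j, ((tS F * g * (tS F)⁻¹ : G3 F) : M3 F) i j = (g : M3 F) (-i) (-j) := fun g i j => by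
    rw [tS_eq, conj_mn]
    rfl
  refine (mem_CT hω).2 ⟨?_, (comm_z hω).2 fun ⟨i, a⟩ ⟨j, c⟩ => ?_⟩
  · rw [mon_dM]
    exact comm_mn fun p q n => blockDiagonal_apply_ne (fun j => (b j : M3 F)) p.1 q.1 fun e => n (by rw [e])
  · have e0 := k (b 0) i j
    have e1 := k (b 1)
    rw [← h0, mul_inv_cancel_right] at e0
    rw [← h2] at e1
    fin_cases a <;> fin_cases c <;> simp [coe_bd, blockDiagonal_apply, e0, e1, neg12]

theorem β_mem_CT (h : G3 F) : β h ∈ CT hω := bd_mem_CT (by simp) rfl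

theorem Δ_mem_CT (hh : h ∈ H4 hω) : Δ h ∈ CT hω :=
  bd_mem_CT (H4_comm hω hh) (show h = tS F * h * _ by rw [← H4_comm hω hh, mul_inv_cancel_right])

theorem sc_mem_CT (s : Fˣ) : sc I9 s ∈ CT hω := (mem_CT hω).2 ⟨(sc_comm9 s _).symm, (sc_comm9 s _).symm⟩

theorem z_mem_CT : mon hω zM ∈ CT hω := mon_mem_CT hω (by decide)

variable (hω)

/-- the action on an eigenspace of `z` in the `ω`-eigenspace of `τ` -/
def kE (e : ε * ε = 1) : CT hω →* G3 F := MonoidHom.toHomUnits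
  { toFun k := pA k + ε • pB k
    map_one' := by simp [p_one]
    map_mul' k l := by
      simp only [Subgroup.coe_mul, pA_mul k.2 l.2, pB_mul k.2 l.2, add_mul, mul_add, smul_add, smul_mul_assoc,
        mul_smul_comm, smul_smul, e, one_smul]
      abel }

theorem coe_kE (e : ε * ε = 1) (k : CT hω) : (kE hω e k : M3 F) = pA k + ε • pB k := rfl

/-- the action on the fixed space of `z` in the `ω`-eigenspace of `τ` -/
abbrev kp : CT hω →* G3 F := kE hω (one_mul 1)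

theorem kE_bd (e : ε * ε = 1) {b : Fin 3 → G3 F} (hb : bd b ∈ CT hω) : kE hω e ⟨bd b, hb⟩ = b 1 :=
  Units.ext (by simp [coe_kE, p_bd])

theorem kE_β (e : ε * ε = 1) (h : G3 F) : kE hω e ⟨β h, β_mem_CT h⟩ = h := kE_bd hω e _

theorem kE_Δ (e : ε * ε = 1) (hh : h ∈ H4 hω) : kE hω e ⟨Δ h, Δ_mem_CT hh⟩ = h := kE_bd hω e _

theorem kp_sc (s : Fˣ) : kp hω ⟨sc I9 s, sc_mem_CT s⟩ = sc (Fin 3) s := by
  simp only [← Δ_sc]
  exact kE_bd hω _ _

theorem kp_z : kp hω ⟨mon hω zM, z_mem_CT⟩ = 1 := Units.ext (by simp [coe_kE, p_z])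

theorem kE_mem (e : ε * ε = 1) (e' : ψ ε = ε) (k : CT hω) (hk : k.1 ∈ UG I9 u ψ) : kE hω e k ∈ UG (Fin 3) u ψ :=
  fun hu => by
  have h1 := fun p q => congrFun (congrFun (hk hu) p) q
  have hA : (pA k)ᵀ * (pA k).map ψ + (pB k)ᵀ * (pB k).map ψ = 1 := by
    ext i j
    have := h1 (i, 1) (j, 1)
    rw [Matrix.mul_apply, sum9] at this
    simpa [CT_zero k.2, CT_neg k.2, Matrix.one_apply, Matrix.mul_apply, pA] using this
  have hB : (pA k)ᵀ * (pB k).map ψ + (pB k)ᵀ * (pA k).map ψ = 0 := by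
    ext i j
    have := h1 (i, 1) (-j, 2)
    rw [Matrix.mul_apply, sum9] at this
    simp only [transpose_apply, map_apply, CT_zero k.2, CT_neg k.2] at this
    simpa [Matrix.one_apply, Matrix.mul_apply, pA, pB] using this
  rw [coe_kE, Matrix.map_add _ ψ.map_add, show (ε • pB k).map ψ = ε • (pB k).map ψ by ext; simp [e'], transpose_add,
    transpose_smul]
  simp only [add_mul, mul_add, smul_add, smul_mul_assoc, mul_smul_comm, smul_smul, e, one_smul]
  linear_combination (norm := module) hA + ε • hB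

end CfsgLib.C9
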