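import Cfsg.Agent.Lib.C9.Three

/-! The normaliser of `3 ^ (1 + 4)` in dimension nine: vocabulary (plans/C9.md). -/

set_option autoImplicit false

namespace CfsgLib.C9

open Matrix Subgroup Equiv Cfsg Cfsg.Geo CfsgLib.Asch CfsgLib.Mit CfsgLib.Mit.Gm

variable {F : Type*} [Field F]

section gen

variable {ι : Type} [Fintype ι] [DecidableEq ι] {u : Prop} {ψ : F →+* F} {d e : ι → Fˣ} {π ρ : Perm ι}

/-- the unitary group for `ψ` if `u` holds, the general linear group otherwise -/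
def UG (ι : Type) [Fintype ι] [DecidableEq ι] (u : Prop) (ψ : F →+* F) : Subgroup (GL ι F) where
  carrier := {g | u → (g : Matrix ι ι F)ᵀ * (g : Matrix ι ι F).map ψ = 1}
  one_mem' _ := by simp
  mul_mem' {g h} hg hh hu := by
    rw [Units.val_mul, transpose_mul, Matrix.map_mul, mul_assoc, ← mul_assoc _ _ (Matrix.map _ _), hg hu, one_mul,
      hh hu]
  inv_mem' {g} hg hu := by
    have h1 : ((g⁻¹ : GL ι F) : Matrix ι ι F)ᵀ * (g : Matrix ι ι F)ᵀ = 1 := by
      rw [← transpose_mul, Units.mul_inv, transpose_one]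
    have h2 : (g : Matrix ι ι F).map ψ * ((g⁻¹ : GL ι F) : Matrix ι ι F).map ψ = 1 := by
      rw [← Matrix.map_mul, Units.mul_inv, Matrix.map_one _ ψ.map_zero ψ.map_one]
    have h3 := hg hu
    calc _ = ((g⁻¹ : GL ι F) : Matrix ι ι F)ᵀ * ((g : Matrix ι ι F)ᵀ * (g : Matrix ι ι F).map ψ) *
          ((g⁻¹ : GL ι F) : Matrix ι ι F).map ψ := by rw [h3, mul_one]
      _ = 1 := by rw [← mul_assoc, h1, one_mul, h2]

/-- the ambient group -/
abbrev SG (ι : Type) [Fintype ι] [DecidableEq ι] (u : Prop) (ψ : F →+* F) : Subgroup (GL ι F) :=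
  UG ι u ψ ⊓ specialLinear ι F

/-- monomial matrices -/
def mnM (d : ι → F) (π : Perm ι) : Matrix ι ι F := of fun p q => if p = π q then d q else 0

theorem mnM_mul (d e : ι → F) (π ρ : Perm ι) : mnM d π * mnM e ρ = mnM (fun q => d (ρ q) * e q) (π * ρ) := by
  ext p q
  simp only [mnM, Matrix.mul_apply, of_apply, mul_ite, ite_mul, mul_zero, zero_mul, Finset.sum_ite_eq',
    Finset.mem_univ, if_true]
  rfl

omit [Fintype ι] in
theorem mnM_one : mnM (fun _ => (1 : F)) (1 : Perm ι) = 1 := by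
  ext p q
  rfl

/-- monomial matrices -/
def mn (d : ι → Fˣ) (π : Perm ι) : GL ι F :=
  ⟨mnM (fun q => d q) π, mnM (fun q => ((d (π⁻¹ q))⁻¹ : Fˣ)) π⁻¹, by simp [mnM_mul, mnM_one],
    by simp [mnM_mul, mnM_one]⟩

theorem mn_apply (p q : ι) : (mn d π : Matrix ι ι F) p q = if p = π q then (d q : F) else 0 := rfl

theorem mn_mul : mn d π * mn e ρ = mn (fun q => d (ρ q) * e q) (π * ρ) := Units.ext (mnM_mul _ _ _ _)

theorem mn_one : mn (fun _ => (1 : Fˣ)) (1 : Perm ι) = 1 := Units.ext mnM_one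

theorem mn_inj (h : mn d π = mn e ρ) : d = e ∧ π = ρ := by
  have k : ∀ q, (d q : F) = if π q = ρ q then (e q : F) else 0 := fun q => by
    rw [← mn_apply, ← h, mn_apply, if_pos rfl]
  have k1 : ∀ q, π q = ρ q := fun q => by_contra fun n => (d q).ne_zero (by rw [k q, if_neg n])
  exact ⟨funext fun q => Units.ext (by rw [k q, if_pos (k1 q)]), Equiv.ext k1⟩

theorem sc_eq_mn (s : Fˣ) : sc ι s = mn (fun _ => s) 1 := Units.ext (by
  rw [coe_sc, smul_one_eq_diagonal]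
  rfl)

/-- the sign of a permutation -/
def sg : Perm ι →* Fˣ := (Units.map (Int.castRingHom F).toMonoidHom).comp Perm.sign

theorem sg_eq_one (h : Perm.sign π = 1) : sg π = (1 : Fˣ) := by simp [sg, h]

theorem sg_eq_neg (h : Perm.sign π = -1) : sg π = (-1 : Fˣ) := Units.ext (by simp [sg, h])

theorem sg_sq (π : Perm ι) : (sg π : Fˣ) * sg π = 1 := by
  rcases Int.units_eq_one_or (Perm.sign π) with h | h
  · rw [sg_eq_one h, one_mul]
  · rw [sg_eq_neg h, neg_mul_neg, one_mul]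

theorem det_mn : GeneralLinearGroup.det (mn d π) = sg π * ∏ q, d q := Units.ext (by
  have : (mn d π : Matrix ι ι F) = (diagonal fun q => (d q : F)).submatrix ⇑π⁻¹ id := by
    ext p q
    simp only [mn_apply, submatrix_apply, diagonal_apply, id, Perm.inv_eq_iff_eq]
    split_ifs with h
    · rw [h, Perm.coe_inv, symm_apply_apply]
    · rfl
  rw [GeneralLinearGroup.val_det_apply, this, det_permute, det_diagonal]
  simp [sg])

theorem mn_mem_UG : mn d π ∈ UG ι u ψ ↔ (u → ∀ q, (d q : F) * ψ (d q) = 1) := by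
  have : (mn d π : Matrix ι ι F)ᵀ * (mn d π : Matrix ι ι F).map ψ = diagonal fun q => (d q : F) * ψ (d q) := by
    ext p q
    simp only [Matrix.mul_apply, transpose_apply, map_apply, mn_apply, ite_mul, zero_mul, Finset.sum_ite_eq',
      Finset.mem_univ, if_true, EmbeddingLike.apply_eq_iff_eq, diagonal_apply]
    split_ifs with h
    · rw [h]
    · rw [map_zero, mul_zero]
  refine imp_congr_right fun _ => ?_
  rw [this, ← diagonal_one, diagonal_eq_diagonal_iff]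

theorem mem_SL {g : GL ι F} : g ∈ specialLinear ι F ↔ GeneralLinearGroup.det g = 1 := Iff.rfl

theorem coe_mn_one : (mn d 1 : Matrix ι ι F) = diagonal fun q => (d q : F) := by
  ext p q
  rw [mn_apply, diagonal_apply]
  split_ifs with h1 h2 h2
  exacts [h2 ▸ rfl, absurd h1 h2, absurd h2 h1, rfl]

/-- a matrix commuting with a diagonal matrix -/
theorem apply_eq_zero {k : GL ι F} (h : k * mn d 1 = mn d 1 * k) {p q : ι} (n : d p ≠ d q) :
    (k : Matrix ι ι F) p q = 0 := by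
  have := congrArg (fun g : GL ι F => (g : Matrix ι ι F) p q) h
  simp only [Units.val_mul, coe_mn_one, mul_diagonal, diagonal_mul] at this
  by_contra h0
  exact n (Units.ext (mul_left_cancel₀ h0 (this.trans (mul_comm _ _))).symm)

theorem comm_mn {k : GL ι F} (h : ∀ p q, d p ≠ d q → (k : Matrix ι ι F) p q = 0) : k * mn d 1 = mn d 1 * k :=
  Units.ext (by
    ext p q
    simp only [Units.val_mul, coe_mn_one, mul_diagonal, diagonal_mul]
    by_cases n : d p = d q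
    · rw [n, mul_comm]
    · rw [h p q n, zero_mul, mul_zero])

theorem mul_mn_apply (U : Matrix ι ι F) (p q : ι) : (U * mn d π : Matrix ι ι F) p q = U p (π q) * d q := by
  rw [Matrix.mul_apply, Finset.sum_eq_single (π q), mn_apply, if_pos rfl]
  · exact fun _ _ n => by rw [mn_apply, if_neg n, mul_zero]
  · simp

theorem mn_mul_apply (U : Matrix ι ι F) (p q : ι) : (mn d π * U : Matrix ι ι F) (π p) q = d p * U p q := by
  rw [Matrix.mul_apply, Finset.sum_eq_single p, mn_apply, if_pos rfl]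
  · exact fun _ _ n => by rw [mn_apply, if_neg fun e => n (π.injective e).symm, zero_mul]
  · simp

theorem conj_mn (s : Fˣ) (g : GL ι F) :
    ((mn (fun _ => s) π * g * (mn (fun _ => s) π)⁻¹ : GL ι F) : Matrix ι ι F) = g.1.submatrix ⇑π⁻¹ ⇑π⁻¹ := by
  rw [Units.val_mul, Units.mul_inv_eq_iff_eq_mul]
  ext p q
  obtain ⟨p, rfl⟩ := π.surjective p
  rw [Units.val_mul, mn_mul_apply, mul_mn_apply, mul_comm]
  simp

end gen

abbrev I9 := Fin 3 × Fin 3

abbrev M9 (F : Type*) := Matrix I9 I9 F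

abbrev G9 (F : Type*) [Field F] := GL I9 F

/-- the finite monomial group `3 ≀ S₉` -/
@[ext] structure Mo where
  f : I9 → Fin 3
  π : Perm I9

instance : DecidableEq Mo := fun a b => decidable_of_iff (∀ q, a.f q = b.f q ∧ a.π q = b.π q)
  ⟨fun h => Mo.ext (funext fun q => (h q).1) (Equiv.ext fun q => (h q).2), fun h _ => h ▸ ⟨rfl, rfl⟩⟩

instance : Mul Mo := ⟨fun a b => ⟨fun q => a.f (b.π q) + b.f q, a.π * b.π⟩⟩

instance : One Mo := ⟨⟨0, 1⟩⟩

instance : Inv Mo := ⟨fun a => ⟨fun q => -a.f (a.π⁻¹ q), a.π⁻¹⟩⟩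

instance : Group Mo := Group.ofLeftAxioms
  (fun _ _ _ => Mo.ext (funext fun _ => add_assoc _ _ _) (mul_assoc _ _ _))
  (fun _ => Mo.ext (funext fun _ => zero_add _) (one_mul _))
  fun a => Mo.ext (funext fun q => by
    show -a.f (a.π⁻¹ (a.π q)) + a.f q = 0
    rw [Perm.coe_inv, symm_apply_apply, neg_add_cancel]) (inv_mul_cancel _)

/-- diagonal elements -/
abbrev dM (f : I9 → Fin 3) : Mo := ⟨f, 1⟩

/-- permutations -/
abbrev pM (π : Perm I9) : Mo := ⟨0, π⟩

/-- the elements of the extraspecial group -/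
def Wm (s : Fin 3) (u v : I9) : Mo := ⟨fun q => s + (v.1 * q.1 + v.2 * q.2), Equiv.addRight u⟩

/-- the symplectic form -/
def fm (p q : I9 × I9) : Fin 3 := p.2.1 * q.1.1 + p.2.2 * q.1.2 - (q.2.1 * p.1.1 + q.2.2 * p.1.2)

open Fin.CommRing in
theorem Wm_mul (s t : Fin 3) (u v u' v' : I9) :
    Wm s u v * Wm t u' v' = Wm (s + t + (v.1 * u'.1 + v.2 * u'.2)) (u + u') (v + v') :=
  Mo.ext (funext fun q => by
    show s + (v.1 * (q.1 + u'.1) + v.2 * (q.2 + u'.2)) + (t + (v'.1 * q.1 + v'.2 * q.2)) =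
      _ + ((v.1 + v'.1) * q.1 + (v.2 + v'.2) * q.2)
    ring) (Equiv.ext fun q => by
      show q + u' + u = q + (u + u')
      abel)

theorem Wm_zero : Wm 0 0 0 = 1 := by decide

/-- the extraspecial group inside the monomial group -/
def RM : Subgroup Mo where
  carrier := {m | ∃ s u v, m = Wm s u v}
  one_mem' := ⟨_, _, _, Wm_zero.symm⟩
  mul_mem' := by
    rintro _ _ ⟨s, u, v, rfl⟩ ⟨t, u', v', rfl⟩
    exact ⟨_, _, _, Wm_mul ..⟩
  inv_mem' := by
    rintro _ ⟨s, u, v, rfl⟩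
    exact ⟨-s + (v.1 * u.1 + v.2 * u.2), -u, -v, inv_eq_of_mul_eq_one_right (by
      rw [Wm_mul, add_neg_cancel, add_neg_cancel, ← Wm_zero]
      exact congrArg (Wm · 0 0) ((by decide : ∀ s a b c d : Fin 3,
        s + (-s + (a * b + c * d)) + (a * -b + c * -d) = 0) s v.1 u.1 v.2 u.2))⟩

/-- a decidable form of membership in `RM` -/
abbrev IsW (m : Mo) : Prop := m = Wm (m.f 0) (m.π 0) (m.f (1, 0) - m.f 0, m.f (0, 1) - m.f 0)

theorem isW_iff {m : Mo} : IsW m ↔ m ∈ RM :=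
  ⟨fun h => ⟨_, _, _, h⟩, by
    rintro ⟨s, u, v, rfl⟩
    simp [IsW, Wm]⟩

/-- the generators -/
abbrev x1M : Mo := Wm 0 0 (1, 0)
abbrev y1M : Mo := Wm 0 (1, 0) 0
abbrev aM : Mo := Wm 0 0 (0, 1)
abbrev y2M : Mo := Wm 0 (0, 1) 0
abbrev oM : Mo := Wm 1 0 0

theorem Wm_eq (s : Fin 3) (u v : I9) :
    Wm s u v = oM ^ s.val * y1M ^ u.1.val * y2M ^ u.2.val * x1M ^ v.1.val * aM ^ v.2.val := by
  revert s u v
  decide +kernel

/-- the central involution of the symplectic group -/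
abbrev zM : Mo := pM (Equiv.neg I9)
/-- a transvection of the symplectic group -/
abbrev tM : Mo := dM fun q => q.2 * q.2
abbrev bxM : Mo := dM fun q => q.1 * q.2
/-- the shears -/
abbrev shM (k : Fin 3) : Mo := pM (prodCongrLeft fun j => Equiv.addRight (k * j))
/-- exchange of the coordinates -/
abbrev swM : Mo := pM (prodComm _ _)

/-- a decidable criterion: determinant one and in the normaliser -/
abbrev NG (m : Mo) : Prop :=
  ∑ q, m.f q = 0 ∧ IsW (m * x1M * m⁻¹) ∧ IsW (m * y1M * m⁻¹) ∧ IsW (m * aM * m⁻¹) ∧ IsW (m * y2M * m⁻¹)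

variable {ω : F} (hω : Om ω) {u : Prop} {ψ : F →+* F} {m n : Mo} {g k : G9 F} {b : Fin 3 → G3 F} {h y : G3 F}

/-- the powers of `ω` -/
def wp (a : Fin 3) : Fˣ := wU hω ^ a.val

theorem wU_cube : wU hω ^ 3 = 1 := Units.ext hω.cube

theorem wp_add (a b : Fin 3) : wp hω (a + b) = wp hω a * wp hω b := by
  rw [wp, wp, wp, ← pow_add, Fin.val_add, ← pow_eq_pow_mod _ (wU_cube hω)]

theorem wp_zero : wp hω 0 = 1 := pow_zero _

theorem wp_one : wp hω 1 = wU hω := pow_one _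

theorem coe_wp (a : Fin 3) : (wp hω a : F) = ω ^ a.val := rfl

theorem wp_cube (a : Fin 3) : wp hω a ^ 3 = 1 := by rw [wp, ← pow_mul, mul_comm, pow_mul, wU_cube, one_pow]

theorem wp_inj {a b : Fin 3} (e : wp hω a = wp hω b) : a = b := by
  exact (by decide : ∀ a b : Fin 3, (a.val : ZMod 3) = b.val → a = b) a b (hω.pow_inj (congrArg Units.val e))

theorem exists_wp {s : Fˣ} (e : s ^ 3 = 1) : ∃ a, s = wp hω a := by
  rcases hω.cases (congrArg Units.val e) with h | h | h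
  exacts [⟨0, Units.ext (h.trans (pow_zero _).symm)⟩, ⟨1, Units.ext (h.trans (pow_one _).symm)⟩, ⟨2, Units.ext h⟩]

theorem prod_wp {ι : Type*} (s : Finset ι) (f : ι → Fin 3) : ∏ q ∈ s, wp hω (f q) = wp hω (∑ q ∈ s, f q) := by
  classical
  induction s using Finset.induction_on with
  | empty => simp [wp_zero]
  | insert _ _ h e => rw [Finset.prod_insert h, Finset.sum_insert h, wp_add, e]

/-- the monomial group as matrices; the signs make the determinant a power of `ω` -/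
def mon : Mo →* G9 F := MonoidHom.mk' (fun m => mn (fun q => sg m.π * wp hω (m.f q)) m.π) fun a b => by
  rw [mn_mul]
  refine congrArg (mn · _) (funext fun q => ?_)
  show sg (a.π * b.π) * wp hω (_ + _) = _
  rw [map_mul, wp_add, mul_mul_mul_comm]

theorem mon_eq (m : Mo) : mon hω m = mn (fun q => sg m.π * wp hω (m.f q)) m.π := rfl

theorem mon_inj : Function.Injective (mon hω) := fun a b e => by
  obtain ⟨h1, h2⟩ := mn_inj e
  exact Mo.ext (funext fun q => wp_inj hω (mul_left_cancel (h2 ▸ congrFun h1 q))) h2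

theorem mon_dM (f : I9 → Fin 3) : mon hω (dM f) = mn (fun q => wp hω (f q)) 1 := by simp [mon_eq]

theorem mon_pM (π : Perm I9) : mon hω (pM π) = mn (fun _ => sg π) π := by simp [mon_eq, wp_zero]

theorem mon_oM : mon hω oM = sc I9 (wU hω) := by
  rw [show oM = dM fun _ => 1 by decide, mon_dM, sc_eq_mn, wp_one]

theorem mon_const (s : Fin 3) : mon hω (dM fun _ => s) = sc I9 (wp hω s) := by rw [mon_dM, sc_eq_mn]

theorem det_mon : GeneralLinearGroup.det (mon hω m) = wp hω (∑ q, m.f q) := by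
  rw [mon_eq, det_mn, Finset.prod_mul_distrib, prod_wp, Finset.prod_const, ← mul_assoc, ← pow_succ',
    show Finset.univ.card + 1 = 2 * 5 from rfl, pow_mul, pow_two, sg_sq, one_pow, one_mul]

theorem wp_norm (ho : u → ψ ω = ω ^ 2) (hu : u) (a : Fin 3) : (wp hω a : F) * ψ (wp hω a) = 1 := by
  rw [coe_wp, map_pow, ho hu, ← mul_pow, ← pow_succ', hω.cube, one_pow]

theorem mon_mem (ho : u → ψ ω = ω ^ 2) (e : ∑ q, m.f q = 0) : mon hω m ∈ SG I9 u ψ :=
  ⟨mn_mem_UG.2 fun hu q => by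
    rw [Units.val_mul, map_mul, mul_mul_mul_comm, wp_norm hω ho hu, mul_one,
      show ψ (sg m.π : Fˣ) = (sg m.π : Fˣ) by simp [sg], ← Units.val_mul, sg_sq, Units.val_one],
    mem_SL.2 (by rw [det_mon, e, wp_zero])⟩

theorem conj_pM (π : Perm I9) (g : G9 F) :
    ((mon hω (pM π) * g * (mon hω (pM π))⁻¹ : G9 F) : M9 F) = g.1.submatrix ⇑π⁻¹ ⇑π⁻¹ := by
  rw [mon_pM, conj_mn]

/-- the extraspecial group of order `3 ^ 5` -/
def R0 : Subgroup (G9 F) := RM.map (mon hω)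

/-- its normaliser -/
abbrev N9 : Subgroup (G9 F) := normalizer (R0 hω : Set (G9 F))

theorem W_mem (s : Fin 3) (u v : I9) : mon hω (Wm s u v) ∈ R0 hω := ⟨_, ⟨s, u, v, rfl⟩, rfl⟩

theorem mon_mem_R0 : mon hω m ∈ R0 hω ↔ IsW m := (mem_map_iff_mem (mon_inj hω)).trans isW_iff.symm

theorem mem_R0 : g ∈ R0 hω ↔ ∃ s u v, g = mon hω (Wm s u v) :=
  ⟨by rintro ⟨_, ⟨s, u, v, rfl⟩, rfl⟩; exact ⟨s, u, v, rfl⟩, by rintro ⟨s, u, v, rfl⟩; exact W_mem ..⟩

theorem R0_le {K : Subgroup (G9 F)} (h1 : mon hω x1M ∈ K) (h2 : mon hω y1M ∈ K) (h3 : mon hω aM ∈ K)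
    (h4 : mon hω y2M ∈ K) : R0 hω ≤ K := fun g hg => by
  obtain ⟨s, u, v, rfl⟩ := (mem_R0 hω).1 hg
  have h0 : mon hω oM ∈ K := by
    rw [show oM = x1M * y1M * x1M⁻¹ * y1M⁻¹ by decide]
    simp only [map_mul, map_inv]
    exact mul_mem (mul_mem (mul_mem h1 h2) (inv_mem h1)) (inv_mem h2)
  rw [Wm_eq]
  simp only [map_mul, map_pow]
  exact mul_mem (mul_mem (mul_mem (mul_mem (pow_mem h0 _) (pow_mem h2 _)) (pow_mem h4 _)) (pow_mem h1 _))
    (pow_mem h3 _)

theorem cube_R0 (hg : g ∈ R0 hω) : g ^ 3 = 1 := by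
  obtain ⟨s, u, v, rfl⟩ := (mem_R0 hω).1 hg
  rw [← map_pow, (by decide +kernel : ∀ s u v, Wm s u v ^ 3 = 1), map_one]

theorem sc_mem_R0 {s : Fˣ} (e : s ^ 3 = 1) : sc I9 s ∈ R0 hω := by
  obtain ⟨a, rfl⟩ := exists_wp hω e
  rw [← mon_const, mon_mem_R0]
  exact (by decide : ∀ a : Fin 3, IsW (dM fun _ => a)) a

theorem sc_comm9 (s : Fˣ) (g : G9 F) : g * sc I9 s = sc I9 s * g := (mul_comm_of_mem_scalars (sc_mem s) g).symm

theorem sc_mem_N9 (s : Fˣ) : sc I9 s ∈ N9 hω := mem_normalizer_iff.2 fun g => by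
  rw [← sc_comm9, mul_inv_cancel_right]

theorem mem_N9 (h1 : g * mon hω x1M * g⁻¹ ∈ R0 hω) (h2 : g * mon hω y1M * g⁻¹ ∈ R0 hω)
    (h3 : g * mon hω aM * g⁻¹ ∈ R0 hω) (h4 : g * mon hω y2M * g⁻¹ ∈ R0 hω) : g ∈ N9 hω := by
  have : Finite Mo := Finite.of_injective (fun m => (m.f, m.π)) fun _ _ e =>
    Mo.ext (congrArg Prod.fst e) (congrArg Prod.snd e)
  have : Finite (R0 hω : Set (G9 F)) := Finite.of_surjective _ ((mon hω).subgroupMap_surjective RM)
  exact mem_normalizer_fintype fun w hw =>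
    R0_le hω (K := (R0 hω).comap (MulAut.conj g).toMonoidHom) h1 h2 h3 h4 hw

theorem mon_conj (m n : Mo) : mon hω m * mon hω n * (mon hω m)⁻¹ = mon hω (m * n * m⁻¹) := by simp

theorem NG.mem_N9 (e : NG m) : mon hω m ∈ N9 hω := by
  refine C9.mem_N9 hω ?_ ?_ ?_ ?_ <;> rw [mon_conj, mon_mem_R0]
  exacts [e.2.1, e.2.2.1, e.2.2.2.1, e.2.2.2.2]

/-- a matrix commuting with the four generators is scalar -/
theorem scalar_of_comm9 {U : M9 F} (h1 : U * mon hω x1M = mon hω x1M * U) (h2 : U * mon hω y1M = mon hω y1M * U)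
    (h3 : U * mon hω aM = mon hω aM * U) (h4 : U * mon hω y2M = mon hω y2M * U) : U = U 0 0 • (1 : M9 F) := by
  have k : ∀ (v u : I9) (p q), U * mon hω (Wm 0 u v) = mon hω (Wm 0 u v) * U →
      U (p + u) (q + u) * wp hω ((Wm 0 u v).f q) = wp hω ((Wm 0 u v).f p) * U p q := fun v u p q e => by
    have := congrFun (congrFun e ((Wm 0 u v).π p)) q
    rw [mon_eq, mul_mn_apply, mn_mul_apply, Units.val_mul, Units.val_mul] at this
    show U ((Wm 0 u v).π p) ((Wm 0 u v).π q) * _ = _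
    exact mul_left_cancel₀ (sg (Wm 0 u v).π : Fˣ).ne_zero (by linear_combination this)
  have k0 : ∀ v p q, U * mon hω (Wm 0 0 v) = mon hω (Wm 0 0 v) * U → (Wm 0 0 v).f p ≠ (Wm 0 0 v).f q → U p q = 0 :=
    fun v p q e n => by_contra fun n0 => n (wp_inj hω (Units.ext (mul_right_cancel₀ n0 (by
      simpa [mul_comm] using (k v 0 p q e).symm))))
  have k1 : ∀ u p, U * mon hω (Wm 0 u 0) = mon hω (Wm 0 u 0) * U → U (p + u) (p + u) = U p p := fun u p e =>
    mul_right_cancel₀ (wp hω _).ne_zero ((k 0 u p p e).trans (mul_comm _ _))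
  ext p q
  by_cases e : p = q
  · subst e
    obtain ⟨i, j, rfl⟩ := (by decide : ∀ p : I9, ∃ i j : Fin 3, p = i.val • (1, 0) + j.val • (0, 1)) p
    rw [Matrix.smul_apply, one_apply_eq, smul_eq_mul, mul_one]
    generalize i.val = i, j.val = j
    induction j with
    | succ j ih => rw [succ_nsmul, ← add_assoc, k1 _ _ h4, ih]
    | zero => induction i with
      | succ i ih => rw [succ_nsmul, add_right_comm, k1 _ _ h2, ih]
      | zero => simp
  · rw [Matrix.smul_apply, one_apply_ne e, smul_zero]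
    rcases (by decide : ∀ p q : I9, p ≠ q → x1M.f p ≠ x1M.f q ∨ aM.f p ≠ aM.f q) p q e with n | n
    exacts [k0 _ _ _ h1 n, k0 _ _ _ h3 n]

/-- an element acting trivially on `R` modulo scalars is a multiple of an element of `R` -/
theorem exists_R0 (e : ∀ w ∈ R0 hω, g * w * g⁻¹ * w⁻¹ ∈ scalars I9 F) : ∃ w ∈ R0 hω, ∃ s, g = w * sc I9 s := by
  have k : ∀ w ∈ R0 hω, ∃ a, g * w = mon hω (Wm a 0 0) * w * g := fun w hw => by
    obtain ⟨s, hs⟩ := e w hw
    have h1 : g * w * g⁻¹ = sc I9 s * w := eq_mul_of_mul_inv_eq hs.symm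
    have h2 : sc I9 (s ^ 3) = 1 := by
      have := congrArg (· ^ 3) h1
      simp only [conj_pow, cube_R0 hω hw, mul_one, mul_inv_cancel] at this
      rw [Commute.mul_pow (sc_comm9 s w).symm, cube_R0 hω hw, mul_one, ← map_pow] at this
      exact this.symm
    obtain ⟨a, rfl⟩ := exists_wp hω (sc_injective (h2.trans (map_one _).symm))
    refine ⟨a, ?_⟩
    rw [(by decide : ∀ a, Wm a 0 0 = dM fun _ => a), mon_const, ← h1, inv_mul_cancel_right]
  obtain ⟨a, h1⟩ := k _ (W_mem hω 0 0 (1, 0))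
  obtain ⟨b, h2⟩ := k _ (W_mem hω 0 (1, 0) 0)
  obtain ⟨c, h3⟩ := k _ (W_mem hω 0 0 (0, 1))
  obtain ⟨d, h4⟩ := k _ (W_mem hω 0 (0, 1) 0)
  have l : ∀ (m w : Mo) (a : Fin 3), g * mon hω w = mon hω (Wm a 0 0) * mon hω w * g →
      m⁻¹ * (Wm a 0 0 * w) = w * m⁻¹ → (((mon hω m)⁻¹ * g : G9 F) : M9 F) * mon hω w =
        mon hω w * ((mon hω m)⁻¹ * g : G9 F) := fun m w a e1 e2 => by
    rw [← Units.val_mul, ← Units.val_mul, mul_assoc, e1, ← mul_assoc, ← mul_assoc _ _ g, ← map_inv, ← map_mul,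
      ← map_mul, e2, map_mul]
  obtain ⟨e1, e2, e3, e4⟩ := (by decide +kernel : ∀ a b c d : Fin 3, let m := Wm 0 (-a, -c) (b, d)
    m⁻¹ * (Wm a 0 0 * x1M) = x1M * m⁻¹ ∧ m⁻¹ * (Wm b 0 0 * y1M) = y1M * m⁻¹ ∧ m⁻¹ * (Wm c 0 0 * aM) = aM * m⁻¹ ∧
      m⁻¹ * (Wm d 0 0 * y2M) = y2M * m⁻¹) a b c d
  obtain ⟨s, hs⟩ := mem_scalars_of_eq_smul (scalar_of_comm9 hω (l _ _ _ h1 e1) (l _ _ _ h2 e2) (l _ _ _ h3 e3)
    (l _ _ _ h4 e4))
  exact ⟨_, W_mem hω _ _ _, s, eq_mul_of_inv_mul_eq hs.symm⟩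

/-- block diagonal matrices; the second coordinate numbers the blocks -/
def bd : (Fin 3 → G3 F) →* G9 F := MonoidHom.toHomUnits
  { toFun b := blockDiagonal fun j => (b j : M3 F)
    map_one' := blockDiagonal_one
    map_mul' a b := blockDiagonal_mul _ _ }

theorem coe_bd : (bd b : M9 F) = blockDiagonal fun j => (b j : M3 F) := rfl

theorem bd_inj : Function.Injective (bd (F := F)) := fun a b e =>
  funext fun j => Units.ext (congrFun (blockDiagonal_injective (show blockDiagonal (fun j => (a j : M3 F)) =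
    blockDiagonal fun j => (b j : M3 F) from congrArg Units.val e)) j)

theorem det_bd : GeneralLinearGroup.det (bd b) = ∏ j, GeneralLinearGroup.det (b j) := Units.ext (by
  rw [GeneralLinearGroup.val_det_apply, coe_bd, det_blockDiagonal]
  simp)

theorem bd_mem_UG : bd b ∈ UG I9 u ψ ↔ ∀ j, b j ∈ UG (Fin 3) u ψ := by
  refine (imp_congr_right fun _ => ?_).trans (forall_comm (p := fun (_ : u) j => (b j : M3 F)ᵀ * (b j : M3 F).map ψ = 1))
  rw [coe_bd, blockDiagonal_transpose, blockDiagonal_map _ _ ψ.map_zero, ← blockDiagonal_mul, ← blockDiagonal_one,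
    blockDiagonal_inj, funext_iff]
  rfl

theorem bd_mn (d : Fin 3 → Fin 3 → Fˣ) (π : Fin 3 → Perm (Fin 3)) :
    bd (fun j => mn (d j) (π j)) = mn (fun q => d q.2 q.1) (prodCongrLeft π) := Units.ext (by
  ext ⟨i, j⟩ ⟨k, l⟩
  by_cases e : j = l <;> simp [coe_bd, blockDiagonal_apply, mn_apply, e])

theorem bd_sc (s : Fin 3 → Fˣ) : bd (fun j => sc (Fin 3) (s j)) = mn (fun q => s q.2) 1 := by
  simp only [sc_eq_mn, bd_mn]
  rfl

theorem aM_eq : aM = dM fun q => q.2 := by decide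

/-- the centraliser of `a` consists of block diagonal matrices -/
theorem exists_bd (e : k * mon hω aM = mon hω aM * k) : ∃ b, k = bd b := by
  have l : ∀ k : G9 F, k * mon hω aM = mon hω aM * k → (k : M9 F) = blockDiagonal (blockDiag k.1) := fun k e => by
    ext ⟨i, j⟩ ⟨k, l⟩
    rw [blockDiagonal_apply]
    split_ifs with n
    · exact (show j = l from n) ▸ rfl
    · rw [aM_eq, mon_dM] at e
      exact apply_eq_zero e fun e => n (wp_inj hω e)
  have l1 := l k e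
  have l2 := l k⁻¹ (Commute.inv_left e)
  have l3 : ∀ j, blockDiag k.1 j * blockDiag (k⁻¹).1 j = 1 := fun j => congrFun (blockDiagonal_injective
    (show blockDiagonal (fun j => blockDiag k.1 j * blockDiag (k⁻¹).1 j) = blockDiagonal 1 by
      rw [blockDiagonal_mul, ← l1, ← l2, Units.mul_inv, blockDiagonal_one])) j
  exact ⟨fun j => ⟨_, _, l3 j, mul_eq_one_comm.1 (l3 j)⟩, Units.ext l1⟩

theorem bd_comm_a (b : Fin 3 → G3 F) : bd b * mon hω aM = mon hω aM * bd b := by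
  rw [aM_eq, mon_dM]
  exact comm_mn fun p q n => blockDiagonal_apply_ne (fun j => (b j : M3 F)) p.1 q.1 fun e => n (congrArg _ e)

/-- the action on the first tensor factor -/
def Δ : G3 F →* G9 F := bd.comp (Pi.constMonoidHom _ _)

theorem Δ_eq (h : G3 F) : Δ h = bd fun _ => h := rfl

/-- the normal subgroup `3 ^ (1 + 2)` of the centraliser of the transvection -/
noncomputable def β : G3 F →* G9 F := MonoidHom.mk' (fun b => bd ![1, b, tS F * b * (tS F)⁻¹]) fun a b => by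
  rw [← map_mul]
  refine congrArg _ (funext fun j => ?_)
  fin_cases j <;> simp

theorem β_eq (h : G3 F) : β h = bd ![1, h, tS F * h * (tS F)⁻¹] := rfl

theorem xS_eq : xS hω = mn (wp hω) 1 := Units.ext (by
  ext i j
  fin_cases i <;> fin_cases j <;> simp [xS, coe_gl, XS, mn_apply, coe_wp])

theorem yS_eq : yS F = mn (fun _ => 1) (Equiv.addRight 1) := Units.ext (by
  ext i j
  fin_cases i <;> fin_cases j <;> simp [coe_yS, mn_apply])

theorem tS_eq : tS F = mn (fun _ => -1) (Equiv.neg _) := Units.ext (by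
  ext i j
  fin_cases i <;> fin_cases j <;> simp [coe_tS, mn_apply] <;> decide)

theorem dg_eq (a b c : Fˣ) : dg a b c = mn ![a, b, c] 1 := Units.ext (by
  ext i j
  fin_cases i <;> fin_cases j <;> simp [coe_dg, mn_apply])

/-- block diagonal monomial matrices -/
theorem bd_eq_mon {f : Fin 3 → Fin 3 → Fin 3} {π : Fin 3 → Perm (Fin 3)} {s : Fˣ}
    (e : ∀ j, b j = mn (fun i => s * wp hω (f j i)) (π j)) (e1 : sg (prodCongrLeft π) = s)
    (e2 : m = ⟨fun q => f q.2 q.1, prodCongrLeft π⟩) : bd b = mon hω m := by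
  rw [funext e, bd_mn, e2, mon_eq, e1]

theorem Δ_xS : Δ (xS hω) = mon hω x1M := bd_eq_mon hω (f := fun _ i => i) (π := fun _ => 1) (s := 1)
  (fun _ => by simp [xS_eq]) (sg_eq_one (by decide)) (by decide)

theorem Δ_yS : Δ (yS F) = mon hω y1M := bd_eq_mon hω (f := 0) (π := fun _ => Equiv.addRight 1) (s := 1)
  (fun _ => by simp [yS_eq, wp_zero]) (sg_eq_one (by decide)) (by decide)

theorem dS_eq : dS hω = mn (fun i => wp hω (![1, 0, 0] i)) 1 := by
  rw [dS, dg_eq]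
  refine congrArg (mn · _) (funext fun i => ?_)
  fin_cases i <;> simp [wp]

theorem Δ_dS : Δ (dS hω) = mon hω (dM fun q => ![1, 0, 0] q.1) :=
  bd_eq_mon hω (f := fun _ => ![1, 0, 0]) (π := fun _ => 1) (s := 1) (fun _ => by simp [dS_eq])
    (sg_eq_one (by decide)) (by decide)

theorem tS_xS : tS F * xS hω * (tS F)⁻¹ = (xS hω)⁻¹ := by
  rw [eq_inv_iff_mul_eq_one, tS_inv, xS_eq, tS_eq, mn_mul, mn_mul, mn_mul, ← mn_one]
  congr 1
  · ext i
    simp [← wp_add, wp_zero]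
  · decide

theorem tS_yS : tS F * yS F * (tS F)⁻¹ = (yS F)⁻¹ := by
  rw [eq_inv_iff_mul_eq_one, tS_inv, yS_eq, tS_eq, mn_mul, mn_mul, mn_mul, ← mn_one]
  congr 1
  · simp
  · decide

theorem β_xS : β (xS hω) = mon hω bxM := by
  refine bd_eq_mon hω (f := fun j i => i * j) (π := fun _ => 1) (s := 1) (fun j => ?_) (sg_eq_one (by decide))
    (by decide)
  fin_cases j
  · simp [wp_zero, mn_one]
  · simp [xS_eq]
  · simp only [tS_xS, one_mul]
    refine inv_eq_of_mul_eq_one_right ?_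
    rw [xS_eq, mn_mul, ← mn_one]
    refine congrArg (mn · _) (funext fun i => ?_)
    rw [← wp_add, ← wp_zero hω]
    exact congrArg _ (by revert i; decide)

theorem β_yS : β (yS F) = mon hω (shM 1) := by
  refine bd_eq_mon hω (f := 0) (π := fun j => Equiv.addRight (1 * j)) (s := 1) (fun j => ?_) (sg_eq_one (by decide))
    (by decide)
  fin_cases j
  · simp [wp_zero, ← mn_one]
  · simp [yS_eq, wp_zero]
  · simp only [tS_yS, one_mul]
    refine inv_eq_of_mul_eq_one_right ?_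
    rw [yS_eq, mn_mul, ← mn_one]
    congr 1
    · simp [wp_zero]
    · decide

theorem bd_wp (f : Fin 3 → Fin 3) : bd (fun j => sc (Fin 3) (wp hω (f j))) = mon hω (dM fun q => f q.2) := by
  rw [bd_sc, mon_dM]

theorem β_sc : β (sc (Fin 3) (wU hω)) = mon hω tM := by
  rw [← bd_wp hω fun j => j * j, β_eq, sc_comm, mul_inv_cancel_right]
  refine congrArg _ (funext fun j => ?_)
  fin_cases j <;> simp [wp]

theorem Δ_sc (s : Fˣ) : Δ (sc (Fin 3) s) = sc I9 s := by rw [Δ_eq, bd_sc, sc_eq_mn]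

theorem Δ_comm_y2 (h : G3 F) : Δ h * mon hω y2M = mon hω y2M * Δ h := by
  refine (mul_inv_eq_iff_eq_mul.1 (Units.ext ?_)).symm
  rw [show y2M = pM (Equiv.addRight (0, 1)) by decide, conj_pM]
  ext ⟨i, j⟩ ⟨k, l⟩
  simp [Δ_eq, coe_bd, blockDiagonal_apply]

theorem Δ_mem_R0 (hh : h ∈ stdR hω) : Δ h ∈ R0 hω :=
  stdR_le hω (M := (R0 hω).comap Δ) (show Δ _ ∈ _ from Δ_xS hω ▸ W_mem ..) (one_smul _ _).symm (one_pow 3)
    (show Δ _ ∈ _ from Δ_yS hω ▸ W_mem ..) hh

theorem Δ_mem_N9 (hh : h ∈ N3 hω) : Δ h ∈ N9 hω := by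
  refine mem_N9 hω ?_ ?_ ?_ ?_
  · rw [← Δ_xS, ← map_inv, ← map_mul, ← map_mul]
    exact Δ_mem_R0 hω ((mem_normalizer_iff.1 hh _).1 (xS_mem hω))
  · rw [← Δ_yS, ← map_inv, ← map_mul, ← map_mul]
    exact Δ_mem_R0 hω ((mem_normalizer_iff.1 hh _).1 (yS_mem hω))
  · rw [Δ_eq, bd_comm_a, mul_inv_cancel_right]
    exact W_mem ..
  · rw [Δ_comm_y2, mul_inv_cancel_right]
    exact W_mem ..

theorem Hs_le_UG (ho : u → ψ ω = ω ^ 2) : Hs hω ≤ UG (Fin 3) u ψ := by
  refine (Hs_le_iff hω).2 ⟨xS_eq hω ▸ mn_mem_UG.2 (wp_norm hω ho), yS_eq (F := F) ▸ mn_mem_UG.2 (by simp),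
    fun hu => ?_, dS_eq hω ▸ mn_mem_UG.2 fun hu _ => wp_norm hω ho hu _⟩
  have h1 := ho hu
  have h2 : ψ (th ω) = -th ω := by
    rw [th, map_div₀, map_sub, map_pow, h1, map_ofNat, ← neg_div]
    congr 1
    linear_combination ω * hω.cube
  have h3 := hω.th2
  have h4 := hω.eq
  have h5 := hω.cube
  ext i j
  fin_cases i <;> fin_cases j <;> simp [coe_fS, VS, Matrix.mul_apply, Fin.sum_univ_three, h1, h2] <;> grind

/-- the standing hypotheses: `X` lies between the normaliser and the ambient group and does not contain all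
monomial matrices -/
structure Ctx (u : Prop) (ψ : F →+* F) (X : Subgroup (G9 F)) : Prop where
  om : u → ψ ω = ω ^ 2
  mit : ∀ M ≤ UG (Fin 3) u ψ, Hs hω ≤ normalizer (M : Set (G3 F)) → M ≤ N3 hω ∨ (SG (Fin 3) u ψ ≤ M ∧ (2 : F) ≠ 0)
  perf : (2 : F) ≠ 0 → SG (Fin 3) u ψ ≤ ⁅SG (Fin 3) u ψ, SG (Fin 3) u ψ⁆
  le : X ≤ SG I9 u ψ
  ge : N9 hω ⊓ SG I9 u ψ ≤ X
  fin : ¬ ∀ d π, mn d π ∈ SG I9 u ψ → mn d π ∈ X

namespace Ctx

variable {hω} {X : Subgroup (G9 F)} (c : Ctx hω u ψ X)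
include c

theorem mon_mem (e : NG m) : mon hω m ∈ X := c.ge ⟨e.mem_N9 hω, C9.mon_mem hω c.om e.1⟩

theorem R0_le : R0 hω ≤ X :=
  C9.R0_le hω (c.mon_mem (by decide)) (c.mon_mem (by decide)) (c.mon_mem (by decide)) (c.mon_mem (by decide))

theorem β_mem (hh : h ∈ stdR hω) : β h ∈ X :=
  stdR_le hω (M := X.comap β) (show β _ ∈ _ from β_xS hω ▸ c.mon_mem (by decide)) (one_smul _ _).symm (one_pow 3)
    (show β _ ∈ _ from β_yS hω ▸ c.mon_mem (by decide)) hh

theorem Δ_mem [Finite F] (hh : h ∈ Hs hω) : Δ h ∈ X :=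
  c.ge ⟨Δ_mem_N9 hω (Hs_le_N3 hω hh), bd_mem_UG.2 fun _ => Hs_le_UG hω c.om hh, mem_SL.2 (by
    rw [Δ_eq, det_bd, Finset.prod_const]
    exact Units.ext (det_Hs hω hh))⟩

theorem det (hk : k ∈ X) : GeneralLinearGroup.det k = 1 := (c.le hk).2

end Ctx

theorem β_mem_N9 (hh : h ∈ stdR hω) : β h ∈ N9 hω :=
  stdR_le hω (M := (N9 hω).comap β) (show β _ ∈ _ from β_xS hω ▸ NG.mem_N9 hω (by decide)) (one_smul _ _).symm
    (one_pow 3) (show β _ ∈ _ from β_yS hω ▸ NG.mem_N9 hω (by decide)) hh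

end CfsgLib.C9
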