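import Cfsg.Agent.Lib.C9.Cs

/-! The involutions of the normaliser (plans/C9.md). -/

set_option autoImplicit false

namespace CfsgLib.C9

open Matrix Subgroup Equiv Cfsg Cfsg.Geo CfsgLib.Asch CfsgLib.Mit CfsgLib.Mit.Gm

variable {F : Type*} [Field F] {ω : F} {hω : Om ω} {u : Prop} {ψ : F →+* F} {X : Subgroup (G9 F)}
  {k : G9 F} {b : Fin 3 → G3 F} {y : G3 F}

/-- reduction modulo scalars -/
abbrev pq : G9 F →* G9 F ⧸ scalars I9 F := QuotientGroup.mk' _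

theorem pq_eq_one : pq k = 1 ↔ k ∈ scalars I9 F := QuotientGroup.eq_one_iff k

theorem pq_sc (s : Fˣ) : pq (sc I9 s) = 1 := pq_eq_one.2 (sc_mem s)

theorem pq_W (s : Fin 3) (u v : I9) : pq (mon hω (Wm s u v)) = pq (mon hω (Wm 0 u v)) := by
  rw [show Wm s u v = Wm s 0 0 * Wm 0 u v by simp [Wm_mul], map_mul, map_mul,
    (by decide : ∀ a, Wm a 0 0 = dM fun _ => a), mon_const, pq_sc, one_mul]

theorem pq_comm {w w' : G9 F} (h : w ∈ R0 hω) (h' : w' ∈ R0 hω) : pq w * pq w' = pq w' * pq w := by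
  obtain ⟨s, u, v, rfl⟩ := (mem_R0 hω).1 h
  obtain ⟨t, u', v', rfl⟩ := (mem_R0 hω).1 h'
  rw [← map_mul, ← map_mul, ← map_mul, ← map_mul, Wm_mul, Wm_mul, pq_W, pq_W (t + s + _), add_comm u, add_comm v]

theorem pq_z {w : G9 F} (h : w ∈ R0 hω) : pq (mon hω zM) * pq w = (pq w)⁻¹ * pq (mon hω zM) := by
  obtain ⟨s, u, v, rfl⟩ := (mem_R0 hω).1 h
  obtain ⟨t, e⟩ := (by decide +kernel : ∀ u v, ∃ t, Wm 0 u v * (zM * Wm 0 u v) = Wm t 0 0 * zM) u v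
  rw [pq_W, eq_inv_mul_iff_mul_eq, ← map_mul, ← map_mul, ← map_mul, ← map_mul, e, map_mul, map_mul, pq_W, Wm_zero,
    map_one, map_one, one_mul]

theorem exists_Z {y : G9 F} (hy : y ∈ SG I9 u ψ) (hk : k ∈ SG I9 u ψ) (e : pq y = pq k) :
    ∃ c ∈ scalars I9 F ⊓ SG I9 u ψ, k = y * c :=
  ⟨y⁻¹ * k, mem_inf.2 ⟨QuotientGroup.eq.1 e, mul_mem (inv_mem hy) hk⟩, (mul_inv_cancel_left _ _).symm⟩

theorem eq_one_of_sq (hk : k ∈ scalars I9 F ⊓ SG I9 u ψ) (e : k * k = 1) : k = 1 := by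
  obtain ⟨⟨s, rfl⟩, -, h⟩ := hk
  have h1 : s * s = 1 := sc_injective (ι := I9) (by rwa [map_mul, map_one])
  have h2 : s ^ (2 * 4 + 1) = 1 := by
    have := mem_SL.1 h
    rw [show Units.map _ s = sc I9 s from rfl, sc_eq_mn, det_mn] at this
    simpa using this
  rw [pow_succ, pow_mul, pow_two, h1, one_pow, one_mul] at h2
  rw [h2, map_one]

theorem z_ne (g : G9 F) : mon hω zM ≠ g * mon hω sM * g⁻¹ := fun e => by
  let B : Matrix I9 (Fin 3) F := of fun p k => if p.1 = k then ![0, 1, -1] p.2 else 0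
  let f : Fin 4 → I9 := ![(1, 0), (0, 1), (1, 1), (1, 2)]
  have h1 : (mon hω sM : M9 F) + 1 = B * Bᵀ := by
    rw [mon_pM, sg_eq_neg (by decide)]
    ext ⟨i, a⟩ ⟨j, b⟩
    fin_cases a <;> fin_cases b <;> by_cases n : i = j <;>
      simp [B, mn_apply, Matrix.mul_apply, Matrix.one_apply, n, eq_comm] <;> decide
  have h2 : ((mon hω zM : M9 F) + 1).submatrix f (-f) = 1 := by
    rw [mon_pM, sg_eq_one (by decide)]
    ext i j
    fin_cases i <;> fin_cases j <;> simp [f, mn_apply, Matrix.one_apply] <;> decide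
  have h3 : (mon hω zM : M9 F) + 1 = g.1 * B * (Bᵀ * (g⁻¹).1) := by
    rw [e, Matrix.mul_assoc, ← Matrix.mul_assoc B, ← h1, add_mul, mul_add, one_mul, Units.mul_inv, Units.val_mul,
      Units.val_mul, mul_assoc]
  rw [h3, submatrix_mul _ _ _ id _ Function.bijective_id] at h2
  have := (rank_mul_le_left _ ((Bᵀ * (g⁻¹).1).submatrix id (-f))).trans (rank_le_width ((g.1 * B).submatrix f id))
  rw [h2, rank_one] at this
  simp at this

theorem Δ_tS : Δ (tS F) = mon hω (swM * sM * swM⁻¹) := bd_eq_mon hω (f := 0) (π := fun _ => Equiv.neg _) (s := -1)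
  (fun _ => by simp [tS_eq, wp_zero]) (sg_eq_neg (by decide)) (by decide)

theorem act_sc (s : Fˣ) : Act ω (sc (Fin 3) s) 1 := fun U a b h => by
  rw [show cj (sc (Fin 3) s) U = U by simp [cj, ← map_inv, coe_sc, smul_smul]]
  simpa using h

variable [Finite F]

namespace Ctx

variable (c : Ctx hω u ψ X)
include c

omit [Finite F] in
theorem ng {m : Mo} (e : NG m) : mon hω m ∈ N9 hω ⊓ SG I9 u ψ := ⟨e.mem_N9 hω, C9.mon_mem hω c.om e.1⟩

/-- the normaliser is transitive on the non-central elements modulo scalars -/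
theorem trans (hk : k ∈ R0 hω) (n : k ∉ scalars I9 F) :
    ∃ g ∈ N9 hω ⊓ SG I9 u ψ, pq (g * k * g⁻¹) = pq (mon hω aM) := by
  let T (a v : I9) := ∃ g ∈ N9 hω ⊓ SG I9 u ψ, pq (g * mon hω (Wm 0 a v) * g⁻¹) = pq (mon hω aM)
  have st : ∀ a v a' v', ∀ g ∈ N9 hω ⊓ SG I9 u ψ, pq (g * mon hω (Wm 0 a v) * g⁻¹) = pq (mon hω (Wm 0 a' v')) →
      T a' v' → T a v := fun a v a' v' g hg e ⟨g', hg', e'⟩ => ⟨g' * g, mul_mem hg' hg, by
    rw [← e', map_mul (x := g' * _), map_mul (x := g'), ← e]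
    simp only [map_mul, map_inv, _root_.mul_inv_rev, mul_assoc]⟩
  have hg : ∀ i j l k, NG (pM (gl2 i j l k)) := by decide +kernel
  have h1 : ∀ v ≠ 0, T 0 v := fun v n => by
    obtain ⟨i, j, l, k, e⟩ := (by decide +kernel : ∀ v ≠ 0, ∃ i j l k,
      pM (gl2 i j l k) * Wm 0 0 v * (pM (gl2 i j l k))⁻¹ = aM) v n
    exact ⟨_, c.ng (hg i j l k), by rw [mon_conj, e]⟩
  have h2 : T (1, 0) 0 := by
    have hf := H4_le hω (fS_H4 hω)
    refine st _ _ _ _ _ ⟨Δ_mem_N9 hω (Hs_le_N3 hω hf), c.le (c.Δ_mem hf)⟩ ?_ (h1 (1, 0) (by decide))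
    obtain ⟨s, e⟩ := mem_scalars_iff_sc.1 (pr_scalar (ω := ω) (g := (xS hω)⁻¹ * (fS hω * yS F * (fS hω)⁻¹)) (by
      rw [Units.val_mul]
      exact ((pr_inv hω (g := xS hω) pr_X).mul hω (act_conj (y := yS F) (act_fS hω) pr_Y)).congr (by simp) (by simp)))
    rw [← Δ_yS, ← Δ_xS, ← map_inv, ← map_mul, ← map_mul, ← mul_inv_cancel_left (xS hω) (_ * _), ← e, map_mul, map_mul,
      Δ_sc s, pq_sc, mul_one]
  have h3 : ∀ v, T (1, 0) v := fun v => by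
    obtain ⟨a, b, t, e, e'⟩ := (by decide +kernel : ∀ v, ∃ a b t : Fin 3, let m := dM fun q => q.1 * (a * q.1 + b * q.2)
      m * Wm 0 (1, 0) v * m⁻¹ = Wm t (1, 0) 0 ∧ NG m) v
    exact st _ _ _ _ _ (c.ng e') (by rw [mon_conj, e, pq_W]) h2
  obtain ⟨s, a, v, rfl⟩ := (mem_R0 hω).1 hk
  suffices T a v by simpa only [T, map_mul, pq_W s] using this
  by_cases h : a = 0
  · refine h ▸ h1 v fun e => n (pq_eq_one.1 ?_)
    rw [h, e, pq_W, Wm_zero, map_one, map_one]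
  obtain ⟨i, j, l, k, -, v', e⟩ := (by decide +kernel : ∀ a ≠ 0, ∀ v, ∃ i j l k, gl2 i j l k a = (1, 0) ∧ ∃ v',
    pM (gl2 i j l k) * Wm 0 a v * (pM (gl2 i j l k))⁻¹ = Wm 0 (1, 0) v') a h v
  exact st _ _ _ _ _ (c.ng (hg i j l k)) (by rw [mon_conj, e]) (h3 v')

theorem inv_cent_a (hk : k ∈ X) (e : k * mon hω aM = mon hω aM * k) (h2 : pq k * pq k = 1) :
    pq k = 1 ∨ ∃ n ∈ N9 hω ⊓ SG I9 u ψ, pq (n * mon hω sM * n⁻¹) = pq k := by
  obtain ⟨h, hh, r, hr, hr', s, rfl⟩ := c.cent_a_struct hk e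
  rw [map_mul, pq_sc, mul_one] at h2 ⊢
  obtain ⟨A, hA⟩ := exists_act hω (Hs_le_N3 hω (H4_le hω hh))
  have hA2 : A * 1 * (A * 1) = 1 := by
    obtain ⟨t, ht⟩ := pq_eq_one.1 ((map_mul ..).trans h2)
    rw [Δ_eq, ← map_mul, ← map_mul, show Units.map _ t = Δ (sc (Fin 3) t) from (Δ_sc t).symm] at ht
    exact ((hA.mul (act_of_mem hω (hr 0))).mul (hA.mul (act_of_mem hω (hr 0)))).unique hω
      ((show sc (Fin 3) t = h * r 0 * (h * r 0) from congrFun (bd_inj ht) 0) ▸ act_sc t)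
  have key : ∀ h : G3 F, Act ω h 1 → ∃ m ∈ N9 hω ⊓ SG I9 u ψ, m ^ 3 = 1 ∧ pq (Δ h * bd r) = pq m := fun h e => by
    obtain ⟨a, a', e⟩ := pr_of_act hω e
    obtain ⟨r', h1, t, rfl, -⟩ := split_pr hω e
    refine ⟨Δ r' * bd r, ⟨mul_mem (Δ_mem_N9 hω (le_normalizer h1)) hr', mul_mem (c.le (c.Δ_mem (stdR_le_Hs hω h1)))
      ⟨bd_mem_UG.2 fun j => Hs_le_UG hω c.om (stdR_le_Hs hω (hr j)), mem_SL.2 ?_⟩⟩, ?_, ?_⟩
    · rw [det_bd]
      exact Finset.prod_eq_one fun j _ => Units.ext (hr j).1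
    · rw [Δ_eq, ← map_mul, ← map_pow, ← map_one bd]
      exact congrArg _ (funext fun j => cube_stdR hω (mul_mem h1 (hr j)))
    · simp only [map_mul, Δ_sc, pq_sc, mul_one]
  have hd := hA.det hω
  rw [det_fin_two] at hd
  rw [eta_fin_two A] at hA2 hA
  rcases (by decide +kernel : ∀ a b c d : ZMod 3, a * d - b * c = 1 → !![a, b; c, d] * 1 * (!![a, b; c, d] * 1) = 1 →
    !![a, b; c, d] = 1 ∨ -1 * !![a, b; c, d] = 1) _ _ _ _ hd hA2 with e1 | e1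
  · obtain ⟨m, -, h3, e2⟩ := key h (e1 ▸ hA)
    rw [e2] at h2 ⊢
    exact Or.inl ((one_mul _).symm.trans (by rw [← h2, ← pow_three', ← map_pow, h3, map_one, h2]))
  · obtain ⟨m, hm, h3, e2⟩ := key _ (e1 ▸ (act_tS hω).mul hA)
    have e3 : pq (Δ h * bd r) = pq (Δ (tS F)) * pq m := by
      rw [← e2, ← map_mul, ← mul_assoc, ← map_mul, ← mul_assoc, tS_mul, one_mul]
    have e4 : pq (Δ (tS F)) * pq (Δ (tS F)) = 1 := by rw [← map_mul, ← map_mul, tS_mul, map_one, map_one]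
    refine Or.inr ⟨m * mon hω swM, mul_mem hm (c.ng (by decide)), ?_⟩
    rw [e3] at h2 ⊢
    rw [_root_.mul_inv_rev, ← mul_assoc, mul_assoc m, mul_assoc m, mon_conj, ← Δ_tS, map_mul, map_mul, map_inv]
    replace h3 : pq m ^ 3 = 1 := by rw [← map_pow, h3, map_one]
    generalize pq m = m, pq (Δ (tS F)) = t at *
    calc m * t * m⁻¹ = t * (t * m * (t * m)) * m⁻¹ * m⁻¹ := by rw [← mul_assoc, ← mul_assoc, ← mul_assoc, e4]; group
      _ = t * m * (m ^ 3)⁻¹ := by rw [h2]; group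
      _ = t * m := by rw [h3, inv_one, mul_one]

/-- the involutions of the normaliser modulo scalars -/
theorem invol (hk : k ∈ N9 hω ⊓ SG I9 u ψ) (h2 : k * k ∈ scalars I9 F) :
    pq k = 1 ∨ (∃ n ∈ N9 hω ⊓ SG I9 u ψ, pq (n * mon hω sM * n⁻¹) = pq k) ∨
      ∃ e ∈ R0 hω, pq (e * mon hω zM * e⁻¹) = pq k := by
  have hz : pq (mon hω zM) * pq (mon hω zM) = 1 := by
    rw [← map_mul, ← map_mul, show zM * zM = 1 by decide, map_one, map_one]
  by_cases h : ∀ w ∈ R0 hω, w * (k * w * k⁻¹) ∈ scalars I9 F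
  · obtain ⟨w, hw, s, e⟩ := exists_R0 hω (g := k * mon hω zM) fun w hw => pq_eq_one.1 (by
      have := pq_eq_one.2 (h _ (inv_mem hw))
      simp only [map_mul, map_inv, _root_.mul_inv_rev] at this ⊢
      rw [mul_assoc (pq k), pq_z hw, ← this]
      simp only [mul_assoc, mul_inv_cancel_left]
      rw [← mul_assoc, ← mul_assoc, ← map_inv, ← map_inv, ← map_mul, ← map_mul,
        pq_comm ((mem_normalizer_iff.1 hk.1 _).1 (inv_mem hw)) (inv_mem hw)]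
      simp only [map_mul, mul_assoc])
    refine Or.inr (Or.inr ⟨w⁻¹, inv_mem hw, ?_⟩)
    have e1 := congrArg pq e
    have e2 := congrArg pq (cube_R0 hω hw)
    simp only [map_mul, map_inv, pq_sc, mul_one, inv_inv, map_pow, map_one] at e1 e2 ⊢
    rw [mul_assoc, pq_z hw, ← mul_one (pq k), ← hz, ← mul_assoc, ← mul_assoc, e1, mul_left_inj, ← _root_.mul_inv_rev,
      inv_eq_iff_mul_eq_one, ← pow_three', e2]
  push Not at h
  obtain ⟨w, hw, n⟩ := h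
  have h1 := (mem_normalizer_iff.1 hk.1 _).1 hw
  have h3 := mul_mem hw h1
  have h4 : k * (w * (k * w * k⁻¹)) * k⁻¹ = k * w * k⁻¹ * w := by
    rw [show k * (w * (k * w * k⁻¹)) * k⁻¹ = k * w * k⁻¹ * (k * k * w * (k * k)⁻¹) by group,
      mul_comm_of_mem_scalars h2, mul_inv_cancel_right]
  have h5 : pq (w * (k * w * k⁻¹)) = pq (k * (w * (k * w * k⁻¹)) * k⁻¹) := by
    rw [h4, map_mul, pq_comm hw h1, ← map_mul]
  generalize w * (k * w * k⁻¹) = b at *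
  have hb := c.le (c.R0_le h3)
  obtain ⟨d, hd, e⟩ := exists_Z hb (mul_mem (mul_mem hk.2 hb) (inv_mem hk.2)) h5
  have hc := mul_comm_of_mem_scalars hd.1
  have e1 : d = 1 := eq_one_of_sq hd (mul_left_cancel (a := b) (by
    calc b * (d * d) = k * (k * b * k⁻¹) * k⁻¹ := by
          rw [← mul_assoc, ← e, mul_assoc _ _ d, ← hc, ← mul_assoc, mul_assoc k b, ← e]
      _ = b * 1 := by
          rw [show k * (k * b * k⁻¹) * k⁻¹ = k * k * b * (k * k)⁻¹ by group, mul_comm_of_mem_scalars h2,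
            mul_inv_cancel_right, mul_one]))
  rw [e1, mul_one] at e
  obtain ⟨g, hg, e2⟩ := c.trans h3 n
  obtain ⟨d, hd, e2⟩ := exists_Z (mul_mem (mul_mem hg.2 hb) (inv_mem hg.2)) (c.ng (m := aM) (by decide)).2 e2
  rcases c.inv_cent_a (c.ge (mul_mem (mul_mem hg hk) (inv_mem hg))) (by
      rw [e2, mul_assoc _ d, mul_comm_of_mem_scalars hd.1, ← mul_assoc _ _ d, ← mul_assoc _ _ d, conj_mul, conj_mul,
        mul_inv_eq_iff_eq_mul.1 e]) (by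
      rw [← map_mul, conj_mul, map_mul, map_mul, pq_eq_one.2 h2, mul_one, ← map_mul, mul_inv_cancel, map_one])
    with e3 | ⟨n, hn, e3⟩
  · exact Or.inl (by simpa [mul_inv_eq_one] using e3)
  · refine Or.inr (Or.inl ⟨g⁻¹ * n, mul_mem (inv_mem hg) hn, ?_⟩)
    rw [show g⁻¹ * n * mon hω sM * (g⁻¹ * n)⁻¹ = g⁻¹ * (n * mon hω sM * n⁻¹) * g by group, map_mul, map_mul, e3]
    simp [mul_assoc]

theorem le_N9 : X ≤ N9 hω := fun g hg => by
  have : Finite (G9 F) := Finite.of_injective _ Units.val_injective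
  have hZ : ∀ d ∈ scalars I9 F ⊓ SG I9 u ψ, ∀ g, d * g = g * d := fun d hd => mul_comm_of_mem_scalars hd.1
  have : (scalars I9 F ⊓ SG I9 u ψ).Normal := ⟨fun d hd g => by rwa [← hZ d hd, mul_inv_cancel_right]⟩
  have hs := c.ng (m := sM) (by decide)
  have hz := c.ng (m := zM) (by decide)
  have s2 : mon hω sM * mon hω sM = 1 := by rw [← map_mul, show sM * sM = 1 by decide, map_one]
  have z2 : mon hω zM * mon hω zM = 1 := by rw [← map_mul, show zM * zM = 1 by decide, map_one]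
  have hR : R0 hω ≤ N9 hω ⊓ SG I9 u ψ := le_inf le_normalizer (c.R0_le.trans c.le)
  have hE : R0 hω ⊔ scalars I9 F ⊓ SG I9 u ψ ≤ N9 hω ⊓ SG I9 u ψ :=
    sup_le hR (inf_le_inf_right _ (by rintro _ ⟨s, rfl⟩; exact sc_mem_N9 hω s))
  have mE : ∀ e ∈ R0 hω ⊔ scalars I9 F ⊓ SG I9 u ψ, ∃ w ∈ R0 hω, pq e = pq w := fun e he => by
    obtain ⟨w, hw, d, hd, rfl⟩ := mem_sup_of_normal_right.1 he
    exact ⟨w, hw, by rw [map_mul, pq_eq_one.2 hd.1, mul_one]⟩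
  have ns : ∀ π : Perm I9, π ≠ 1 → mon hω (pM π) ∉ scalars I9 F := fun π n ⟨s, e⟩ =>
    n (mn_inj ((sc_eq_mn s).symm.trans e)).2.symm
  have one : ∀ g x y, ∀ d ∈ scalars I9 F ⊓ SG I9 u ψ, x * x = 1 → y * y = 1 → x = g * y * g⁻¹ * d → d = 1 :=
    fun g x y d hd hx hy e => eq_one_of_sq hd (by
      rwa [e, mul_assoc, ← mul_assoc d, hZ d hd, ← mul_assoc, ← mul_assoc, conj_mul, hy, mul_one, mul_inv_cancel,
        one_mul] at hx)
  have h3 : ∀ g, ∀ d ∈ scalars I9 F ⊓ SG I9 u ψ, mon hω zM ≠ g * mon hω sM * g⁻¹ * d := fun g d hd e =>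
    z_ne g (by rwa [one _ _ _ d hd z2 s2 e, mul_one] at e)
  have h2 : ∀ k ∈ N9 hω ⊓ SG I9 u ψ, k * k ∈ scalars I9 F ⊓ SG I9 u ψ → k ∈ scalars I9 F ⊓ SG I9 u ψ ∨
      (∃ n ∈ N9 hω ⊓ SG I9 u ψ, ∃ d ∈ scalars I9 F ⊓ SG I9 u ψ, k = n * mon hω sM * n⁻¹ * d) ∨
      ∃ e ∈ R0 hω ⊔ scalars I9 F ⊓ SG I9 u ψ, ∃ d ∈ scalars I9 F ⊓ SG I9 u ψ, k = e * mon hω zM * e⁻¹ * d :=
    fun k hk h => (c.invol hk h.1).imp (fun e => ⟨pq_eq_one.1 e, hk.2⟩) (Or.imp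
      (fun ⟨n, hn, e⟩ => ⟨n, hn, exists_Z (mul_mem (mul_mem hn hs) (inv_mem hn)).2 hk.2 e⟩)
      fun ⟨n, hn, e⟩ => ⟨n, mem_sup_left hn, exists_Z (mul_mem (mul_mem (hR hn) hz) (inv_mem (hR hn))).2 hk.2 e⟩)
  suffices ∀ w ∈ R0 hω, g * w * g⁻¹ ∈ R0 hω ⊔ scalars I9 F ⊓ SG I9 u ψ by
    refine mem_normalizer_fintype fun w hw => ?_
    obtain ⟨v, hv, d, hd, e⟩ := mem_sup_of_normal_right.1 (this w hw)
    obtain ⟨s, rfl⟩ := mem_scalars_iff_sc.1 hd.1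
    have h1 := congrArg (· ^ 3) e
    simp only [conj_pow, cube_R0 hω hw, mul_one, mul_inv_cancel] at h1
    rw [Commute.mul_pow (sc_comm9 s v), cube_R0 hω hv, one_mul, ← map_pow] at h1
    exact e ▸ mul_mem hv (sc_mem_R0 hω (sc_injective (h1.trans (map_one _).symm)))
  refine fun w hw => normal_of_end' hZ le_sup_right hE c.ge s2 z2
    (by rw [← map_mul, ← map_mul, show sM * zM = zM * sM by decide]) hs hz (fun g hg h => ?_) h2 h3
    (fun h => ns _ (by decide) h.1) (fun e he => ⟨pq_eq_one.1 ?_, (mul_mem (mul_mem (mul_mem hz (hE he)) hz) (hE he)).2⟩)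
    (fun e he => ⟨pq_eq_one.1 ?_, (pow_mem (hE he) 3).2⟩) hg (mem_sup_left hw)
  · have h1 : g * mon hω sM * g⁻¹ * (g * mon hω sM * g⁻¹) = 1 := by rw [conj_mul, s2, mul_one, mul_inv_cancel]
    rcases h2 _ h (h1 ▸ one_mem _) with e | ⟨n, hn, d, hd, e⟩ | ⟨n, -, d, hd, e⟩
    · exact absurd (by simpa [mul_assoc] using (scalars_normal (ι := I9) (F := F)).conj_mem _ e.1 g⁻¹)
        (ns _ (by decide))
    · rw [one _ _ _ d hd h1 s2 e, mul_one] at e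
      refine ⟨(mul_mem_cancel_left (inv_mem (mem_inf.1 hn).1)).1 (c.cent_s (mul_mem (inv_mem (c.ge hn)) hg) ?_),
        c.le hg⟩
      rw [← mul_inv_eq_iff_eq_mul, show n⁻¹ * g * _ * _ = n⁻¹ * (g * mon hω sM * g⁻¹) * n by group, e]
      group
    · rw [one _ _ _ d hd h1 z2 e, mul_one] at e
      refine absurd ?_ (z_ne (hω := hω) (n⁻¹ * g))
      rw [show n⁻¹ * g * _ * _ = n⁻¹ * (g * mon hω sM * g⁻¹) * n by group, e]
      group
  · obtain ⟨w, hw, e1⟩ := mE e he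
    rw [map_mul, map_mul, map_mul, e1, pq_z hw, mul_assoc (pq w)⁻¹, ← map_mul, z2, map_one, mul_one, inv_mul_cancel]
  · obtain ⟨w, hw, e1⟩ := mE e he
    rw [map_pow, e1, ← map_pow, cube_R0 hω hw, map_one]

end Ctx

end CfsgLib.C9
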