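import Cfsg.Agent.Lib.C9.Defs
import Cfsg.Agent.Lib.SLCases.Proper
import Cfsg.Agent.Lib.CasesSp.Basic

/-! The normal form of the extraspecial group (plans/C9.md). -/

set_option autoImplicit false

namespace CfsgLib.C9

open Matrix Subgroup Equiv Cfsg Cfsg.Geo CfsgLib.Asch CfsgLib.Mit CfsgLib.Mit.Gm

variable {F : Type*} [Field F] {ω : F} (hω : Om ω) {B : Matrix (Fin 9) I9 F} {B' : Matrix I9 (Fin 9) F}

/-- change of basis -/
def tr (h1 : B * B' = 1) (h2 : B' * B = 1) : GL (Fin 9) F ≃* G9 F := Units.mapEquiv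
  { toFun g := B' * g * B
    invFun g := B * g * B'
    left_inv g := by simp only [Matrix.mul_assoc, h1, Matrix.mul_one]; rw [← Matrix.mul_assoc, h1, Matrix.one_mul]
    right_inv g := by simp only [Matrix.mul_assoc, h2, Matrix.mul_one]; rw [← Matrix.mul_assoc, h2, Matrix.one_mul]
    map_mul' g h := by simp only [Matrix.mul_assoc]; rw [← Matrix.mul_assoc B B', h1, Matrix.one_mul] }

theorem coe_tr (h1 : B * B' = 1) (h2 : B' * B = 1) (g : GL (Fin 9) F) : (tr h1 h2 g : M9 F) = B' * g.1 * B := rfl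

theorem tr_sc (h1 : B * B' = 1) (h2 : B' * B = 1) (s : Fˣ) : tr h1 h2 (sc (Fin 9) s) = sc I9 s :=
  Units.ext (by simp [coe_tr, coe_sc, h2])

section

variable {g h k x y x' y' : GL (Fin 9) F} {a b : Fin 3}

/-- commutation up to a power of `ω` -/
def Cm (g h : GL (Fin 9) F) (a : Fin 3) : Prop := g * h = sc (Fin 9) (wp hω a) * (h * g)

variable {hω}

theorem cm_zero : Cm hω g h 0 ↔ g * h = h * g := by simp [Cm, wp_zero]

theorem Cm.mul (e : Cm hω g h a) (e' : Cm hω k h b) : Cm hω (g * k) h (a + b) := by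
  rw [Cm, mul_assoc, e', ← mul_assoc, ← mul_comm_of_mem_scalars (sc_mem _), mul_assoc, ← mul_assoc g, e, add_comm,
    wp_add, map_mul]
  simp only [mul_assoc]

theorem Cm.pow (e : Cm hω g h a) (n : ℕ) : Cm hω (g ^ n) h (n • a) := by
  induction n with
  | zero => simp [cm_zero]
  | succ n ih => rw [pow_succ, succ_nsmul]; exact ih.mul e

theorem Cm.symm (e : Cm hω g h a) : Cm hω h g (-a) := by
  rw [Cm, e, ← mul_assoc, ← map_mul, ← wp_add, neg_add_cancel, wp_zero, map_one, one_mul]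

theorem Cm.congr (e : Cm hω g h a) (e' : a = b) : Cm hω g h b := e' ▸ e

theorem Cm.sc (e : Cm hω g h a) (s : Fˣ) : Cm hω (sc (Fin 9) s * g) h a :=
  ((cm_zero.2 (mul_comm_of_mem_scalars (sc_mem s) h)).mul e).congr (zero_add a)

include hω in
theorem exists_eig {U T : Matrix (Fin 9) (Fin 9) F} (hU : U ^ 3 = 1) (hc : T * U = U * T) {v : Fin 9 → F} (h0 : v ≠ 0)
    (hv : T *ᵥ v = v) : ∃ (a : Fin 3) (w : Fin 9 → F), w ≠ 0 ∧ U *ᵥ w = ω ^ a.val • w ∧ T *ᵥ w = w := by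
  have k : ∀ (v : Fin 9 → F) (l : F), T *ᵥ v = v → T *ᵥ (U *ᵥ v - l • v) = U *ᵥ v - l • v := fun v l e => by
    rw [mulVec_sub, mulVec_smul, mulVec_mulVec, hc, ← mulVec_mulVec, e]
  by_cases h1 : U *ᵥ v - (1 : F) • v = 0
  · exact ⟨0, v, h0, by simpa using sub_eq_zero.1 h1, hv⟩
  by_cases h2 : U *ᵥ (U *ᵥ v - (1 : F) • v) - ω • (U *ᵥ v - (1 : F) • v) = 0
  · exact ⟨1, _, h1, by simpa using sub_eq_zero.1 h2, k _ _ hv⟩
  refine ⟨2, _, h2, ?_, k _ _ (k _ _ hv)⟩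
  have : U *ᵥ U *ᵥ U *ᵥ v = v := by rw [mulVec_mulVec, mulVec_mulVec, ← pow_three', hU, one_mulVec]
  simp only [mulVec_sub, mulVec_smul, this, show (2 : Fin 3).val = 2 from rfl]
  match_scalars
  · linear_combination -hω.cube
  · linear_combination -hω.eq
  · linear_combination hω.eq + hω.cube

theorem exists_basis9 (hy : y ^ 3 = 1) (hy' : y' ^ 3 = 1) (h1 : Cm hω x y 1) (h2 : Cm hω x y' 0) (h3 : Cm hω x' y 0)
    (h4 : Cm hω x' y' 1) (h5 : y' * y = y * y') {v : Fin 9 → F} (h0 : v ≠ 0) (hv : x.1 *ᵥ v = v) (hv' : x'.1 *ᵥ v = v) :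
    ∃ (B : Matrix (Fin 9) I9 F) (B' : Matrix I9 (Fin 9) F) (h1 : B * B' = 1) (h2 : B' * B = 1),
      tr h1 h2 x = mon hω x1M ∧ tr h1 h2 y = mon hω y1M ∧ tr h1 h2 x' = mon hω aM ∧ tr h1 h2 y' = mon hω y2M := by
  let W (p : I9) : GL (Fin 9) F := y ^ p.1.val * y' ^ p.2.val
  let B : Matrix (Fin 9) I9 F := of fun r p => ((W p).1 *ᵥ v) r
  have k : ∀ (g : GL (Fin 9) F) (m : Mo), Perm.sign m.π = 1 →
      (∀ q, (g * W q).1 *ᵥ v = (wp hω (m.f q) : F) • (W (m.π q)).1 *ᵥ v) → g.1 * B = B * (mon hω m).1 :=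
    fun g m e e' => by
      ext r q
      rw [mon_eq, sg_eq_one e, Matrix.mul_apply (M := B), Finset.sum_eq_single (m.π q), mn_apply, if_pos rfl, one_mul,
        mul_comm]
      · exact (congrFun (mulVec_mulVec v g.1 (W q).1) r).trans (congrFun (e' q) r)
      · exact fun _ _ n => by rw [mn_apply, if_neg n, mul_zero]
      · simp
  have kx : ∀ (g : GL (Fin 9) F) (a b : Fin 3), Cm hω g y a → Cm hω g y' b → g.1 *ᵥ v = v →
      g.1 * B = B * (mon hω (Wm 0 0 (a, b))).1 := fun g a b e e' e'' =>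
    k g _ (by simp [Wm]) fun q => by
      rw [(((e.symm.pow q.1.val).mul (e'.symm.pow q.2.val)).symm.congr (b := (Wm 0 0 (a, b)).f q)
        ((by decide : ∀ a b i j : Fin 3, -(i.val • -a + j.val • -b) = 0 + (a * i + b * j)) a b q.1 q.2) : g * W q = _),
        Units.val_mul, Units.val_mul, coe_sc, smul_mul_assoc, one_mul, smul_mulVec, ← mulVec_mulVec, e'']
      simp [Wm, W]
  have p3 : ∀ {g : GL (Fin 9) F}, g ^ 3 = 1 → ∀ i : Fin 3, g * g ^ i.val = g ^ (i + 1).val := fun e i => by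
    rw [← pow_succ', Fin.val_add, ← pow_eq_pow_mod _ e]
    rfl
  have e1 := kx x _ _ h1 h2 hv
  have e3 := kx x' _ _ h3 h4 hv'
  have e2 := k y y1M (by decide) fun q => by simp [W, Wm, wp_zero, ← p3 hy, mul_assoc]
  have e4 := k y' y2M (by decide) fun q => by
    rw [← mul_assoc, (Commute.pow_right h5 _).eq, mul_assoc, p3 hy']
    simp [W, Wm, wp_zero]
  have hK : ∀ w ∈ R0 hω, ∀ c, B *ᵥ c = 0 → B *ᵥ w.1 *ᵥ c = 0 := fun w hw => by
    have l : ∀ {g : GL (Fin 9) F} {m : Mo}, g.1 * B = B * (mon hω m).1 → ∀ c, B *ᵥ c = 0 → B *ᵥ (mon hω m).1 *ᵥ c = 0 :=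
      fun e c hc => by rw [mulVec_mulVec, ← e, ← mulVec_mulVec, hc, mulVec_zero]
    let K : Submonoid (G9 F) :=
      { carrier := {w | ∀ c, B *ᵥ c = 0 → B *ᵥ w.1 *ᵥ c = 0}
        one_mem' c hc := by simpa using hc
        mul_mem' ha hb c hc := by simpa only [Units.val_mul, ← mulVec_mulVec] using ha _ (hb c hc) }
    obtain ⟨s, u, v, rfl⟩ := (mem_R0 hω).1 hw
    rw [Wm_eq]
    simp only [map_mul, map_pow]
    exact K.mul_mem (K.mul_mem (K.mul_mem (K.mul_mem (K.pow_mem (fun c hc => by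
      rw [mon_oM, coe_sc, smul_mulVec, one_mulVec, mulVec_smul, hc, smul_zero]) _) (K.pow_mem (l e2) _))
      (K.pow_mem (l e4) _)) (K.pow_mem (l e1) _)) (K.pow_mem (l e3) _)
  have hk0 : ∀ c, B *ᵥ c = 0 → c 0 = 0 := fun c hc => by
    have l : ∀ v c, B *ᵥ c = 0 → B *ᵥ (fun q => (1 + ω ^ ((Wm 0 0 v).f q).val + (ω ^ ((Wm 0 0 v).f q).val) ^ 2) * c q)
        = 0 := fun v c hc => by
      have l1 := hK _ (W_mem hω 0 0 v)
      have l2 := l1 _ hc
      have l3 := l1 _ l2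
      refine Eq.trans ?_ ((congrArg₂ (· + ·) (congrArg₂ (· + ·) hc l2) l3).trans (by simp))
      rw [← mulVec_add, ← mulVec_add, show Wm 0 0 v = dM (Wm 0 0 v).f from Mo.ext rfl (by simp [Wm]), mon_dM, coe_mn_one]
      congr 1
      ext q
      simp only [Pi.add_apply, mulVec_diagonal, coe_wp]
      ring
    have l1 := l (1, 0) _ (l (0, 1) _ hc)
    rw [show (fun q => _) = Pi.single ((0, 0) : I9) (9 * c (0, 0)) by
      have h1 : 1 + ω + ω ^ 2 = 0 := by linear_combination hω.eq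
      have h2 : 1 + ω ^ 2 + (ω ^ 2) ^ 2 = 0 := by linear_combination hω.eq + ω * hω.cube
      ext ⟨i, j⟩
      fin_cases i <;> fin_cases j <;> simp [Wm, h1, h2]
      ring, mulVec_single] at l1
    have : (9 : F) ≠ 0 := by simpa [← show (3 : F) * 3 = 9 by norm_num] using hω.three
    have l2 : B.col (0, 0) = v := by
      ext r
      simp [B, W]
    rw [l2, op_smul_eq_smul, smul_eq_zero, mul_eq_zero] at l1
    exact (l1.resolve_right h0).resolve_left this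
  obtain ⟨φ, hφ⟩ := LinearMap.exists_leftInverse_of_injective (toLin' B) (LinearMap.ker_eq_bot'.2 fun c hc => by
    ext p
    have := hk0 _ (hK _ (W_mem hω 0 (-p) 0) c hc)
    rw [mulVec, dotProduct, Finset.sum_eq_single p] at this
    · simpa [mon_eq, mn_apply, Wm] using this
    · exact fun q _ n => by simp [mon_eq, mn_apply, Wm, eq_add_neg_iff_add_eq, n.symm]
    · simp)
  have k2 : LinearMap.toMatrix' φ * B = 1 := by
    rw [← LinearMap.toMatrix'_toLin' B, ← LinearMap.toMatrix'_comp, hφ, LinearMap.toMatrix'_id]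
  have k1 := (mul_eq_one_comm_of_equiv (finProdFinEquiv (m := 3) (n := 3))).1 k2
  have l : ∀ {g : GL (Fin 9) F} {m : G9 F}, g.1 * B = B * m.1 → tr k1 k2 g = m := fun e => Units.ext (by
    rw [coe_tr, Matrix.mul_assoc, e, ← Matrix.mul_assoc, k2, Matrix.one_mul])
  exact ⟨B, _, k1, k2, l e1, l e2, l e3, l e4⟩

end

theorem exists_nf [Finite F] {R : Subgroup (GL (Fin 9) F)} (hR : IsSymplecticTypeGroup 3 R)
    (habs : ActsAbsolutelyIrreducibly (matrixSet R)) (hZ : Nat.card (center R) = 3) :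
    ∃ (B : Matrix (Fin 9) I9 F) (B' : Matrix I9 (Fin 9) F) (h1 : B * B' = 1) (h2 : B' * B = 1),
      R.map (tr h1 h2).toMonoidHom = R0 hω := by
  have : Finite (GL (Fin 9) F) := Finite.of_injective _ Units.val_injective
  have h3 : ∀ x ∈ R, x ^ 3 = 1 := fun x hx => by
    have := Monoid.pow_exponent_eq_one (⟨x, hx⟩ : R)
    rw [hR.exponent_eq] at this
    exact congrArg Subtype.val this
  have cm : ∀ g ∈ R, ∀ h ∈ R, ∃ a, Cm hω g h a := fun g hg h hh => by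
    obtain ⟨s, e⟩ := mem_scalars_iff_sc.1 ((CasesSp.mem_center_iff_scalar habs _).1 (SLCases.comm_mem_center
      Nat.prime_three hR.pGroup hR.cyclic_of_characteristic (by rw [hZ, hR.exponent_eq]; rfl) ⟨g, hg⟩ ⟨h, hh⟩))
    have e1 : sc (Fin 9) s = g * h * g⁻¹ * h⁻¹ := e
    obtain ⟨a, rfl⟩ := exists_wp hω (s := s) (sc_injective (ι := Fin 9) (by
      rw [map_pow, map_one, e1]
      exact h3 _ (mul_mem (mul_mem (mul_mem hg hh) (inv_mem hg)) (inv_mem hh))))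
    exact ⟨a, by rw [Cm, e1]; group⟩
  have pair : ∀ C ≤ R, ∀ x ∈ C, ∀ g ∈ C, x * g ≠ g * x → ∃ y ∈ C, Cm hω x y 1 := fun C hC x hx g hg n => by
    obtain ⟨a, e⟩ := cm x (hC hx) g (hC hg)
    exact ⟨_, pow_mem hg a.val, (e.symm.pow _).symm.congr ((by decide : ∀ a : Fin 3, a ≠ 0 → -(a.val • -a) = 1) a
      fun e1 => n (cm_zero.1 (e.congr e1)))⟩
  have henv := span_eq_top_of_absIrred habs
  obtain ⟨x, hx, g, hg, n⟩ : ∃ x ∈ R, ∃ g ∈ R, x * g ≠ g * x := by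
    simpa using not_comm_of_env (by simp) henv
  obtain ⟨y, hy, e1⟩ := pair R le_rfl x hx g hg n
  have dec : ∀ g ∈ R, ∃ p : I9, g * (x ^ p.1.val * y ^ p.2.val) ∈ R ⊓ (centralizer {x} ⊓ centralizer {y}) :=
    fun g hg => by
      obtain ⟨a, ea⟩ := cm g hg x hx
      obtain ⟨b, eb⟩ := cm g hg y hy
      refine ⟨(-b, a), mul_mem hg (mul_mem (pow_mem hx _) (pow_mem hy _)), mem_centralizer_singleton_iff.2 (cm_zero.1
        ((ea.mul (((cm_zero.2 rfl).pow _).mul (e1.symm.pow _))).congr ?_)), mem_centralizer_singleton_iff.2 (cm_zero.1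
        ((eb.mul ((e1.pow _).mul ((cm_zero.2 rfl).pow _))).congr ?_))⟩ <;> clear ea eb <;> revert a b <;> decide
  obtain ⟨x', hx', n'⟩ : ∃ x' ∈ R ⊓ (centralizer {x} ⊓ centralizer {y}), x' ∉ scalars (Fin 9) F := by
    by_contra hc
    push Not at hc
    have h1 : (⊤ : Submodule F (Matrix (Fin 9) (Fin 9) F)) ≤
        Submodule.span F (Set.range fun p : I9 => ((x ^ p.1.val * y ^ p.2.val)⁻¹).1) := by
      rw [← Algebra.top_toSubmodule, ← henv]
      refine Submodule.span_le.2 ?_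
      rintro _ ⟨g, hg, rfl⟩
      obtain ⟨p, hp⟩ := dec g hg
      obtain ⟨s, e⟩ := mem_scalars_iff_sc.1 (hc _ hp)
      show g.1 ∈ _
      rw [← mul_inv_eq_iff_eq_mul.2 e, Units.val_mul, coe_sc, smul_mul_assoc, one_mul]
      exact Submodule.smul_mem _ _ (Submodule.subset_span ⟨p, rfl⟩)
    have h2 := (Submodule.finrank_mono h1).trans (finrank_range_le_card _)
    simp [Module.finrank_matrix] at h2
  obtain ⟨y', hy', e4⟩ : ∃ y' ∈ R ⊓ (centralizer {x} ⊓ centralizer {y}), Cm hω x' y' 1 := by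
    by_contra hc
    refine n' ((CasesSp.mem_center_iff_scalar habs ⟨x', hx'.1⟩).1 (mem_center_iff.2 fun g => Subtype.ext ?_))
    obtain ⟨p, hp⟩ := dec g g.2
    have h1 : x' * _ = _ * x' := by_contra fun n => hc (pair _ inf_le_left x' hx' _ hp n)
    have h2 : Commute x' (x ^ p.1.val * y ^ p.2.val) :=
      (Commute.pow_right (mem_centralizer_singleton_iff.1 hx'.2.1) _).mul_right
        (Commute.pow_right (mem_centralizer_singleton_iff.1 hx'.2.2) _)
    rw [mul_assoc, ← h2.eq, ← mul_assoc x', ← mul_assoc _ x', mul_left_inj] at h1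
    exact h1.symm
  have ho : ∀ a, sc (Fin 9) (wp hω a)⁻¹ ∈ R := fun a => (map_inv (sc (Fin 9)) (wp hω a)).symm ▸ inv_mem (by
    rw [wp, map_pow, ← wp_one, ← mul_inv_eq_iff_eq_mul.2 e1]
    exact pow_mem (mul_mem (mul_mem hx hy) (inv_mem (mul_mem hy hx))) _)
  have c3 : ∀ g ∈ R, g.1 ^ 3 = 1 := fun g hg => congrArg Units.val (h3 g hg)
  have hs : ∀ (g : GL (Fin 9) F) (a : Fin 3) (w : Fin 9 → F), g.1 *ᵥ w = ω ^ a.val • w →
      (sc (Fin 9) (wp hω a)⁻¹ * g).1 *ᵥ w = w := fun g a w e => by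
    rw [Units.val_mul, coe_sc, smul_mul_assoc, one_mul, smul_mulVec, e, smul_smul, ← coe_wp hω, Units.inv_mul, one_smul]
  obtain ⟨a, v, v0, hv, -⟩ := exists_eig (hω := hω) (T := 1) (c3 x hx) (by simp) (v := Pi.single 0 1) (by simp)
    (one_mulVec _)
  obtain ⟨b, w, w0, hw, hw'⟩ := exists_eig (hω := hω) (c3 x' hx'.1) (congrArg Units.val (cm_zero.1
    ((cm_zero (hω := hω).2 (mem_centralizer_singleton_iff.1 hx'.2.1).symm).sc _))) v0 (hs x a v hv)
  obtain ⟨B, B', h1, h2, k1, k2, k3, k4⟩ := exists_basis9 (h3 y hy) (h3 y' hy'.1) (e1.sc _)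
    ((cm_zero.2 (mem_centralizer_singleton_iff.1 hy'.2.1).symm).sc _)
    ((cm_zero.2 (mem_centralizer_singleton_iff.1 hx'.2.2)).sc _) (e4.sc _) (mem_centralizer_singleton_iff.1 hy'.2.2) w0
    hw' (hs x' b w hw)
  have le : R0 hω ≤ R.map (tr h1 h2).toMonoidHom := R0_le hω ⟨_, mul_mem (ho a) hx, k1⟩ ⟨_, hy, k2⟩
    ⟨_, mul_mem (ho b) hx'.1, k3⟩ ⟨_, hy'.1, k4⟩
  refine ⟨B, B', h1, h2, le_antisymm ?_ le⟩
  rintro _ ⟨g, hg, rfl⟩
  obtain ⟨w, hw, s, e⟩ := exists_R0 hω (g := tr h1 h2 g) fun w hw => by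
    obtain ⟨r, hr, rfl⟩ := le hw
    obtain ⟨a, e⟩ := cm g hg r hr
    refine ⟨wp hω a, (tr_sc h1 h2 _).symm.trans ?_⟩
    rw [← mul_inv_eq_iff_eq_mul.2 e]
    simp [mul_assoc]
  have e1 := congrArg (· ^ 3) e
  simp only [← map_pow, h3 g hg, map_one] at e1
  rw [Commute.mul_pow (sc_comm9 s w), cube_R0 hω hw, one_mul, ← map_pow] at e1
  exact e ▸ mul_mem hw (sc_mem_R0 hω (sc_injective (e1.symm.trans (map_one _).symm)))

end CfsgLib.C9
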