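import Cfsg.Agent.Lib.Mit.GeoHess2

/-! The Hessian group in dimension three: tools for the normaliser of `3 ^ (1 + 4)` in dimension nine
(plans/C9.md). -/

set_option autoImplicit false

namespace CfsgLib.C9

open Matrix Subgroup Cfsg Cfsg.Geo CfsgLib.Asch CfsgLib.Mit CfsgLib.Mit.Gm

abbrev G3 (F : Type*) [Field F] := GL (Fin 3) F

variable {F : Type*} [Field F] {ω : F} (hω : Om ω) {g h b y : G3 F} {K : Subgroup (G3 F)}
  {A : Matrix (Fin 2) (Fin 2) (ZMod 3)}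

/-- the normaliser of the extraspecial group of order 27 -/
abbrev N3 : Subgroup (G3 F) := normalizer (stdR hω : Set (G3 F))

/-- a complement `SL₂(3)`; it centralises `tS` -/
def H4 : Subgroup (G3 F) := closure {fS hω, dS hω}

/-- the Hessian group of order 648 -/
def Hs : Subgroup (G3 F) := stdR hω ⊔ H4 hω

/-- `ω` as a unit -/
abbrev wU : Fˣ := Units.mk0 ω hω.ne_zero

theorem fS_H4 : fS hω ∈ H4 hω := subset_closure (by simp)

theorem dS_H4 : dS hω ∈ H4 hω := subset_closure (by simp)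

theorem tS_H4 : tS F ∈ H4 hω := fS_sq hω ▸ pow_mem (fS_H4 hω) 2

theorem H4_le : H4 hω ≤ Hs hω := le_sup_right

theorem stdR_le_Hs : stdR hω ≤ Hs hω := le_sup_left

theorem H4_le_iff : H4 hω ≤ K ↔ fS hω ∈ K ∧ dS hω ∈ K := by
  simp [H4, Set.insert_subset_iff]

theorem Hs_le_iff : Hs hω ≤ K ↔ xS hω ∈ K ∧ yS F ∈ K ∧ fS hω ∈ K ∧ dS hω ∈ K :=
  ⟨fun e => ⟨e (stdR_le_Hs hω (xS_mem hω)), e (stdR_le_Hs hω (yS_mem hω)), (H4_le_iff hω).1 ((H4_le hω).trans e)⟩,
    fun e => sup_le (stdR_le hω e.1 (one_smul _ _).symm (one_pow 3) e.2.1) ((H4_le_iff hω).2 e.2.2)⟩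

theorem tS_mul : tS F * tS F = 1 := by rw [← pow_two, tS_sq]

theorem tS_inv : (tS F)⁻¹ = tS F := inv_eq_of_mul_eq_one_right tS_mul

theorem H4_comm (hh : h ∈ H4 hω) : h * tS F = tS F * h := by
  refine mem_centralizer_singleton_iff.1 ((H4_le_iff hω).2 ⟨?_, ?_⟩ hh) <;> rw [mem_centralizer_singleton_iff]
  · rw [← fS_sq hω, ← pow_succ, ← pow_succ']
  · exact Units.ext (by simp [dS, coe_dg, coe_tS])

theorem det_Hs (hh : h ∈ Hs hω) : (h : M3 F).det ^ 3 = 1 := by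
  have := (Hs_le_iff hω (K := (powMonoidHom 3).ker.comap (GeneralLinearGroup.det : G3 F →* Fˣ))).2
    ⟨Units.ext (by simp [xS, coe_gl, hω.det_XS]), Units.ext (by simp [det_yS]), Units.ext (by simp [det_fS]),
      Units.ext (by simpa [dS, det_dg] using hω.cube)⟩ hh
  simpa using congrArg Units.val this

include hω in
theorem act_tS : Act ω (tS F) (-1) := by
  have := (act_fS hω).pow 2
  rwa [fS_sq, show (!![0, 1; 2, 0] ^ 2 : Matrix (Fin 2) (Fin 2) (ZMod 3)) = -1 by decide] at this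

theorem exists_H4 (hA : A.det = 1) : ∃ h ∈ H4 hω, Act ω h A := by
  obtain ⟨i, j, k, l, e⟩ := (by decide +kernel : ∀ a b c d : ZMod 3, a * d - b * c = 1 → ∃ (i : Fin 4) (j : Fin 3)
    (k : Fin 2) (l : Fin 3), (!![0, 1; 2, 0] ^ i.val * !![1, 1; 0, 1] ^ j.val * !![0, 1; 2, 0] ^ k.val *
      !![1, 1; 0, 1] ^ l.val : Matrix (Fin 2) (Fin 2) (ZMod 3)) = !![a, b; c, d]) _ _ _ _
      ((det_fin_two A).symm.trans hA)
  refine ⟨_, mul_mem (mul_mem (mul_mem (pow_mem (fS_H4 hω) i) (pow_mem (dS_H4 hω) j)) (pow_mem (fS_H4 hω) k))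
    (pow_mem (dS_H4 hω) l), ?_⟩
  rw [eta_fin_two A, ← e]
  exact ((((act_fS hω).pow _).mul ((act_dS hω).pow _)).mul ((act_fS hω).pow _)).mul ((act_dS hω).pow _)

theorem exists_pr (a b : ZMod 3) : ∃ r ∈ stdR hω, (r : M3 F) = EE ω a b :=
  ⟨gl _ (hω.det_EE a b), ⟨hω.det_EE a b, a, b, pr_EE a b⟩, rfl⟩

theorem pr_scalar (e : Pr ω (g : M3 F) 0 0) : g ∈ scalars (Fin 3) F := by
  obtain ⟨s, hs⟩ := e
  exact mem_scalars_of_eq_smul (by rw [hs, EE_zero])

include hω in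
theorem pr_zero {a c : ZMod 3} (hg : g ∈ scalars (Fin 3) F) (e : Pr ω (g : M3 F) a c) : a = 0 ∧ c = 0 := by
  obtain ⟨s, rfl⟩ := mem_scalars_iff_sc.1 hg
  exact e.unique hω (GeneralLinearGroup.det_ne_zero _) (by rw [coe_sc]; exact pr_one.smul _)

include hω in
theorem pr_inv {a c : ZMod 3} (e : Pr ω (g : M3 F) a c) : Pr ω ((g⁻¹ : G3 F) : M3 F) (-a) (-c) := by
  obtain ⟨r, hr, e1⟩ := exists_pr hω (-a) (-c)
  have h1 : Pr ω ((g * r : G3 F) : M3 F) 0 0 := by
    rw [Units.val_mul, e1]; exact (e.mul hω (pr_EE _ _)).congr (add_neg_cancel a) (add_neg_cancel c)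
  obtain ⟨s, hs⟩ := mem_scalars_iff_sc.1 (pr_scalar h1)
  have : g⁻¹ = r * sc (Fin 3) s⁻¹ := by rw [map_inv, hs]; group
  rw [this, Units.val_mul, coe_sc, mul_smul_comm, mul_one, e1]
  exact (pr_EE _ _).smul _

theorem act_conj (e : Act ω g A) {a c : ZMod 3} (hy : Pr ω (y : M3 F) a c) :
    Pr ω ((g * y * g⁻¹ : G3 F) : M3 F) (A 0 0 * a + A 0 1 * c) (A 1 0 * a + A 1 1 * c) := by
  rw [← cj_coe]; exact e _ _ _ hy

include hω in
theorem act_inv (e : Act ω g A) : Act ω g⁻¹ A.adjugate := fun U a b hU => by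
  obtain ⟨h, -, e1⟩ := exists_H4 hω (A := A.adjugate) (by rw [det_adjugate, e.det hω, one_pow])
  obtain ⟨s, rfl⟩ := hU
  obtain ⟨r, -, hr⟩ := exists_pr hω (A.adjugate 0 0 * a + A.adjugate 0 1 * b) (A.adjugate 1 0 * a + A.adjugate 1 1 * b)
  have hd := e.det hω
  rw [det_fin_two] at hd
  obtain ⟨t, ht⟩ := (act_conj e (y := r) (hr ▸ pr_EE _ _)).congr (c := a) (d := b)
    (by simp only [adjugate_fin_two, of_apply, cons_val', cons_val_zero, cons_val_one, cons_val_fin_one]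
        linear_combination a * hd)
    (by simp only [adjugate_fin_two, of_apply, cons_val', cons_val_zero, cons_val_one, cons_val_fin_one]
        linear_combination b * hd)
  have t0 : t ≠ 0 := by
    rintro rfl
    exact GeneralLinearGroup.det_ne_zero (g * r * g⁻¹) (by rw [ht, zero_smul, det_zero])
  rw [show EE ω a b = t⁻¹ • cj g r by rw [cj_coe, ht, smul_smul, inv_mul_cancel₀ t0, one_smul], map_smul, map_smul,
    cj_inv_cj, hr]
  exact ((pr_EE _ _).smul _).smul _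

include hω in
/-- an element acting trivially on `R` modulo its centre is a multiple of an element of `R` -/
theorem pr_of_act (e : Act ω g 1) : ∃ a b, Pr ω (g : M3 F) a b := by
  obtain ⟨s, hs⟩ := e.X
  obtain ⟨t, ht⟩ := e.Y
  simp only [one_apply_eq, ne_eq, one_ne_zero, zero_ne_one, not_false_eq_true, one_apply_ne, EE_X,
    EE_Y] at hs ht
  have hs3 : s ^ 3 = 1 := by
    have := congrArg Matrix.det hs
    rwa [det_cj, det_smul, hω.det_XS, mul_one, Fintype.card_fin, eq_comm] at this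
  have ht3 : t ^ 3 = 1 := by
    have := congrArg Matrix.det ht
    rwa [det_cj, det_smul, det_YS, mul_one, Fintype.card_fin, eq_comm] at this
  obtain ⟨k, a, b, c, e⟩ := hω.exists_diag hs3 (by rw [cj_eq_iff.1 hs, smul_mul_assoc])
  have h1 : YS F ^ k * g * YS F = t • (YS F * (YS F ^ k * g)) := by
    rw [mul_assoc, cj_eq_iff.1 ht, smul_mul_assoc, mul_smul_comm, ← mul_assoc, ← mul_assoc,
      ← pow_succ, ← pow_succ']
  rw [e] at h1
  have h2 := congrFun (congrFun h1 1) 0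
  have h3 := congrFun (congrFun h1 2) 1
  simp [YS] at h2 h3
  exact hω.pr_of_diag ht3 (k := k) (a := a) (by rw [e, h3, h2, pow_two, mul_assoc])

theorem split_pr {a c : ZMod 3} (e : Pr ω (g : M3 F) a c) :
    ∃ r ∈ stdR hω, ∃ s : Fˣ, g = r * sc (Fin 3) s ∧ Pr ω (r : M3 F) a c := by
  obtain ⟨r, hr, e1⟩ := exists_pr hω a c
  obtain ⟨s, hs⟩ := mem_scalars_iff_sc.1 (pr_scalar (g := r⁻¹ * g) (by
    rw [Units.val_mul]
    exact ((pr_inv hω (e1 ▸ pr_EE a c)).mul hω e).congr (neg_add_cancel a) (neg_add_cancel c)))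
  exact ⟨r, hr, s, by rw [hs, mul_inv_cancel_left], e1 ▸ pr_EE a c⟩

/-- the structure of the normaliser -/
theorem N3_struct (hg : g ∈ N3 hω) : ∃ h ∈ H4 hω, ∃ r ∈ stdR hω, ∃ s : Fˣ, g = h * r * sc (Fin 3) s := by
  obtain ⟨A, e⟩ := exists_act hω hg
  obtain ⟨h, hh, e1⟩ := exists_H4 hω (e.det hω)
  have := (act_inv hω e1).mul e
  rw [adjugate_mul, e.det hω, one_smul] at this
  obtain ⟨a, c, e2⟩ := pr_of_act hω this
  obtain ⟨r, hr, s, e3, -⟩ := split_pr hω e2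
  exact ⟨h, hh, r, hr, s, by rw [mul_assoc, ← e3, mul_inv_cancel_left]⟩

theorem sc_comm (s : Fˣ) (g : G3 F) : g * sc (Fin 3) s = sc (Fin 3) s * g := Units.ext (by simp [coe_sc])

theorem cube_stdR (hb : b ∈ stdR hω) : b ^ 3 = 1 := by
  obtain ⟨h1, a, c, s, hs⟩ := hb
  have h2 : s ^ 3 = 1 := by rwa [hs, det_smul, hω.det_EE, mul_one, Fintype.card_fin] at h1
  have h3 := hω.cube
  refine Units.ext ?_
  rw [Units.val_pow_eq_pow_val, hs, smul_pow, h2, one_smul, pow_three, hω.EE_mul, mul_smul_comm, hω.EE_mul, smul_smul,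
    ← pow_add, (by decide : ∀ a : ZMod 3, a + (a + a) = 0) a, (by decide : ∀ a : ZMod 3, a + (a + a) = 0) c, EE_zero]
  obtain ⟨k, hk⟩ : 3 ∣ 2 * (a.val * c.val) + 2 * ((a + a).val * c.val) :=
    (by decide : ∀ a c : ZMod 3, 3 ∣ 2 * (a.val * c.val) + 2 * ((a + a).val * c.val)) a c
  rw [hk, pow_mul, h3, one_pow, one_smul, Units.val_one]

theorem sc_mem_stdR {s : Fˣ} : sc (Fin 3) s ∈ stdR hω ↔ s ^ 3 = 1 := by
  have : ((sc (Fin 3) s : G3 F) : M3 F).det = s ^ 3 := by simp [coe_sc]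
  exact ⟨fun e => Units.ext (this.symm.trans e.1), fun e => ⟨this.trans (congrArg Units.val e), 0, 0, by
    rw [coe_sc]; exact pr_one.smul _⟩⟩

theorem xS_yS : xS hω * yS F = sc (Fin 3) (wU hω) * (yS F * xS hω) := Units.ext (by
  rw [Units.val_mul, Units.val_mul, Units.val_mul, coe_sc, smul_mul_assoc, one_mul]; exact hω.XY)

include hω in
/-- a matrix commuting with both generators is scalar -/
theorem scalar_of_comm {U : M3 F} (hx : U * XS ω = XS ω * U) (hy : U * YS F = YS F * U) :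
    U = U 0 0 • (1 : M3 F) := by
  have e := hω.diag_of_comm hx
  rw [e] at hy
  have h2 := congrFun (congrFun hy 1) 0
  have h3 := congrFun (congrFun hy 2) 1
  simp [YS] at h2 h3
  rw [e, h3, h2]
  simp [one_fin_three]

theorem scalars_of_comm (hx : g * xS hω = xS hω * g) (hy : g * yS F = yS F * g) : g ∈ scalars (Fin 3) F :=
  mem_scalars_of_eq_smul (scalar_of_comm hω (congrArg Units.val hx) (congrArg Units.val hy))

theorem dg_mem_N3 {a c d : Fˣ} (e : dg a c d ∈ N3 hω) : a ^ 3 = c ^ 3 ∧ c ^ 3 = d ^ 3 := by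
  have h1 := mul_mem ((mem_normalizer_iff.1 e _).1 (yS_mem hω)) (inv_mem (yS_mem hω))
  have h2 := cube_stdR hω h1
  rw [← commutatorElement_def, comm_dg_yS, pow_three, dg_mul, dg_mul, ← dg_one] at h2
  obtain ⟨-, h3, h4⟩ := dg_inj h2
  rw [← pow_three, mul_pow, inv_pow, mul_inv_eq_one] at h3 h4
  exact ⟨h3.symm, h4.symm⟩

theorem dg_mem_stdR {c : Fˣ} (e : c ^ 3 = 1) : dg c⁻¹ c 1 ∈ stdR hω :=
  (hessRow_SL hω).monRow.dg_mem c⁻¹ (inv_mem e) c e 1 (one_mem _) (by simp) |> fun h =>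
    ⟨mem_specialLinear.1 h, hω.pr_of_diag (k := 0) (a := (c⁻¹ : Fˣ)) (s := (c : F) ^ 2) (by
      rw [← pow_mul, mul_comm, pow_mul, ← Units.val_pow_eq_pow_val, e]; simp) (by
      have : (c : F) ^ 3 = 1 := congrArg Units.val e
      have c0 := c.ne_zero
      rw [pow_zero, one_mul, coe_dg]
      congr 4
      · simp only [Units.val_inv_eq_inv_val]; field_simp
      · simp only [Units.val_inv_eq_inv_val]; field_simp; simp [this])⟩

variable [Finite F]

theorem Hs_le_N3 : Hs hω ≤ N3 hω :=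
  sup_le le_normalizer ((H4_le_iff hω).2 ⟨(act_fS hω).mem_normalizer hω, (act_dS hω).mem_normalizer hω⟩)

omit [Finite F] in
theorem sc_mem_N3 (s : Fˣ) : sc (Fin 3) s ∈ N3 hω := mem_normalizer_iff.2 fun g => by
  rw [← sc_comm, mul_inv_cancel_right]

omit [Finite F] in
/-- a subgroup normalised by the Hessian group that contains a non-scalar element normalising `R` contains `R` -/
theorem stdR_le_of (hK : Hs hω ≤ normalizer (K : Set (G3 F))) (hy : y ∈ K) (h1 : y ∈ N3 hω)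
    (h2 : y ∉ scalars (Fin 3) F) : stdR hω ≤ K := by
  have cm : ∀ y ∈ K, ∀ h ∈ Hs hω, y * h * y⁻¹ * h⁻¹ ∈ K := fun y hy h hh => by
    simpa only [mul_assoc] using mul_mem hy ((mem_normalizer_iff.1 (hK hh) _).1 (inv_mem hy))
  obtain ⟨u, hu, hd, a, c, hp, h0⟩ : ∃ u ∈ K, (u : M3 F).det = 1 ∧ ∃ a c, Pr ω (u : M3 F) a c ∧ ¬ (a = 0 ∧ c = 0) := by
    have dt : ∀ h : G3 F, ((y * h * y⁻¹ * h⁻¹ : G3 F) : M3 F).det = 1 := fun h => by
      have : GeneralLinearGroup.det (y * h * y⁻¹ * h⁻¹) = 1 := by simp [mul_comm]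
      exact congrArg Units.val this
    obtain ⟨A, e⟩ := exists_act hω h1
    by_cases hA : A = 1
    · obtain ⟨a, c, e1⟩ := pr_of_act hω (hA ▸ e)
      refine ⟨_, cm y hy _ (H4_le hω (tS_H4 hω)), dt _, a + a, c + c, ?_, fun e2 => h2 (pr_scalar (ω := ω) ?_)⟩
      · rw [mul_assoc, mul_assoc, ← mul_assoc (tS F), Units.val_mul]
        exact (e1.mul hω (act_conj (act_tS hω) (pr_inv hω e1))).congr (by simp) (by simp)
      · exact e1.congr ((by decide : ∀ a : ZMod 3, a + a = 0 → a = 0) a e2.1)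
          ((by decide : ∀ a : ZMod 3, a + a = 0 → a = 0) c e2.2)
    by_cases hB : A 0 0 = 1 ∧ A 1 0 = 0
    · refine ⟨_, cm y hy _ (stdR_le_Hs hω (yS_mem hω)), dt _, _, _, by
        rw [Units.val_mul]; exact (act_conj e pr_Y).mul hω (pr_inv hω pr_Y), fun e2 => hA ?_⟩
      rw [eta_fin_two A, hB.1, hB.2, show A 0 1 = 0 by simpa using e2.1,
        show A 1 1 = 1 by simpa [add_neg_eq_zero] using e2.2, one_fin_two]
    · exact ⟨_, cm y hy _ (stdR_le_Hs hω (xS_mem hω)), dt _, _, _, by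
        rw [Units.val_mul]; exact (act_conj e pr_X).mul hω (pr_inv hω pr_X),
        fun e2 => hB ⟨by simpa [add_neg_eq_zero] using e2.1, by simpa using e2.2⟩⟩
  have tr : ∀ a' c' : ZMod 3, ¬ (a' = 0 ∧ c' = 0) → ∃ s : F, s ^ 3 = 1 ∧ ∃ v ∈ K, (v : M3 F) = s • EE ω a' c' :=
    fun a' c' h0' => by
      obtain ⟨p, q, r, s, e1, e2, e3⟩ := (by decide : ∀ a c a' c' : ZMod 3, ¬ (a = 0 ∧ c = 0) → ¬ (a' = 0 ∧ c' = 0) →
        ∃ p q r s : ZMod 3, p * s - q * r = 1 ∧ p * a + q * c = a' ∧ r * a + s * c = c') a c a' c' h0 h0'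
      obtain ⟨h, hh, e⟩ := exists_H4 hω (A := !![p, q; r, s]) (by rw [det_fin_two_of, e1])
      obtain ⟨t, ht⟩ := (act_conj e hp).congr (c := a') (d := c') e2 e3
      refine ⟨t, ?_, _, (mem_normalizer_iff.1 (hK (H4_le hω hh)) _).1 hu, ht⟩
      have := congrArg det ht
      rwa [← cj_coe, det_cj, hd, det_smul, hω.det_EE, mul_one, Fintype.card_fin, eq_comm] at this
  obtain ⟨s, hs, v, hv, e1⟩ := tr 1 0 (by decide)
  obtain ⟨t, ht, w, hw, e2⟩ := tr 0 1 (by decide)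
  rw [EE_X] at e1
  rw [EE_Y] at e2
  have h3 : sc (Fin 3) (wU hω) ∈ K := by
    have := cm v hv _ (stdR_le_Hs hω (yS_mem hω))
    rwa [show v * yS F = sc (Fin 3) (wU hω) * (yS F * v) from Units.ext (by
      rw [Units.val_mul, Units.val_mul, Units.val_mul, e1, coe_sc, smul_mul_assoc, smul_mul_assoc, one_mul,
        mul_smul_comm, smul_comm]
      exact congrArg _ hω.XY), mul_assoc, mul_assoc, mul_assoc, mul_inv_cancel_left, mul_inv_cancel, mul_one] at this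
  obtain ⟨i, rfl⟩ := hω.exists_pow ht
  refine stdR_le hω hv e1 hs ?_
  rwa [show w = sc (Fin 3) (wU hω) ^ i * yS F from Units.ext (by
    rw [e2, ← map_pow, Units.val_mul, coe_sc, smul_mul_assoc, one_mul]; rfl),
    mul_mem_cancel_left (pow_mem h3 i)] at hw

end CfsgLib.C9
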